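import Cfsg.Agent.Lib.PresSp.Vec

/-!
# Minimal index of `PSp`: basic elements

For a hyperbolic pair `v, w` with `E = ⟨v, w⟩^⊥` we use the elements `Sq v y a` of the unipotent radical `Q_v`, the
Levi complement (elements fixing `v`, `w`, and `dd`), and the decomposition `V = E ⊕ ⟨v, w⟩`.
-/

set_option autoImplicit false

namespace Cfsg.Agent.Lib.MinSp.Basic

open Matrix Cfsg Cfsg.Agent.Lib.Classical.SympForm Cfsg.Agent.Lib.PresSp.Vec

variable {m : ℕ} {F : Type*} [Field F]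

local notation "⟪" x ", " y "⟫" => sympForm m F x y

lemma fm_comm0 {u v : VV m F} (h : ⟪u, v⟫ = 0) : ⟪v, u⟫ = 0 := by rw [fm_anti u v, h, neg_zero]

lemma fm_zero_right (u : VV m F) : ⟪u, (0 : VV m F)⟫ = 0 := by
  have := fm_smul_right (0 : F) u (0 : VV m F)
  simpa using this

lemma fm_zero_left (u : VV m F) : ⟪(0 : VV m F), u⟫ = 0 := fm_comm0 (fm_zero_right u)

lemma fm_sub_left (u v w : VV m F) : ⟪u - v, w⟫ = ⟪u, w⟫ - ⟪v, w⟫ := by
  rw [sub_eq_add_neg, fm_add_left, ← neg_one_smul F v, fm_smul_left]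
  ring

lemma fm_neg_left (u w : VV m F) : ⟪-u, w⟫ = -⟪u, w⟫ := by
  rw [← neg_one_smul F u, fm_smul_left]
  ring

lemma fm_hyp {v w : VV m F} (h : ⟪v, w⟫ = 1) : ⟪w, v⟫ = -1 := by rw [fm_anti v w, h]

/-- Non-degeneracy of the form. -/
lemma exists_fm_ne {u : VV m F} (hu : u ≠ 0) : ∃ x : VV m F, ⟪u, x⟫ ≠ 0 := by
  by_contra hcon
  push Not at hcon
  apply hu
  exact (sympBilin_nondegenerate (m := m) (F := F)).1 u (fun x => by
    rw [sympBilin_apply]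
    exact hcon x)

lemma exists_hyp {u : VV m F} (hu : u ≠ 0) : ∃ x : VV m F, ⟪u, x⟫ = 1 := by
  obtain ⟨x, hx⟩ := exists_fm_ne hu
  refine ⟨(⟪u, x⟫)⁻¹ • x, ?_⟩
  rw [fm_smul_right, inv_mul_cancel₀ hx]

lemma ne_zero_of_hyp {v w : VV m F} (h : ⟪v, w⟫ = 1) : v ≠ 0 := by
  rintro rfl
  rw [fm_zero_left] at h
  exact zero_ne_one h

lemma ne_zero_of_hyp' {v w : VV m F} (h : ⟪v, w⟫ = 1) : w ≠ 0 := by
  rintro rfl
  rw [fm_zero_right] at h
  exact zero_ne_one h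

/-- The elements of the unipotent radical of the stabiliser of the point `v`. -/
def Sq (v y : VV m F) (a : F) : Spg m F := tS v a * xS v y 1

lemma Sq_act {v y : VV m F} (h : ⟪v, y⟫ = 0) (a : F) (x : VV m F) :
    (Sq v y a).1 *ᵥ x = x + ⟪x, v⟫ • y + (⟪x, y⟫ + a * ⟪x, v⟫) • v := by
  have h' : ⟪y, v⟫ = 0 := fm_comm0 h
  simp only [Sq, mul_act, tS_act, xS_act h, fm_add_left, fm_smul_left, fm_self, h']
  simp only [mul_zero, add_zero, one_mul]
  module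

lemma Sq_mul {v y y' : VV m F} (h : ⟪v, y⟫ = 0) (h' : ⟪v, y'⟫ = 0) (a a' : F) :
    Sq v y a * Sq v y' a' = Sq v (y + y') (a + a' + ⟪y', y⟫) := by
  have h2 : ⟪v, y + y'⟫ = 0 := by rw [fm_add_right, h, h', add_zero]
  have h3 : ⟪y, v⟫ = 0 := fm_comm0 h
  have h4 : ⟪y', v⟫ = 0 := fm_comm0 h'
  apply sp_ext
  intro x
  simp only [mul_act, Sq_act h, Sq_act h', Sq_act h2, fm_add_left, fm_add_right, fm_smul_left, fm_self, h3,
    h4, h]
  simp only [mul_zero, add_zero]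
  module

lemma Sq_zero_right {v y : VV m F} : Sq v y (0 : F) = xS v y 1 := by
  simp [Sq, tS_zero]

lemma Sq_zero_left (v : VV m F) (a : F) : Sq v (0 : VV m F) a = tS v a := by
  apply sp_ext
  intro x
  rw [Sq_act (fm_zero_right v), tS_act, fm_zero_right]
  simp

lemma Sq_one (v : VV m F) : Sq v (0 : VV m F) (0 : F) = 1 := by
  rw [Sq_zero_left, tS_zero]

lemma Sq_inv {v y : VV m F} (h : ⟪v, y⟫ = 0) (a : F) : (Sq v y a)⁻¹ = Sq v (-y) (-a) := by
  have h2 : ⟪v, -y⟫ = 0 := by rw [fm_neg_right, h, neg_zero]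
  apply inv_eq_of_mul_eq_one_right
  rw [Sq_mul h h2, add_neg_cancel, fm_neg_left, fm_self, neg_zero, add_zero, add_neg_cancel, Sq_one]

lemma tS_Sq {v y : VV m F} (h : ⟪v, y⟫ = 0) (a b : F) : tS v b * Sq v y a = Sq v y (a + b) := by
  rw [← Sq_zero_left, Sq_mul (fm_zero_right v) h, zero_add, fm_zero_right, add_zero, add_comm b a]

lemma Sq_tS {v y : VV m F} (h : ⟪v, y⟫ = 0) (a b : F) : Sq v y a * tS v b = Sq v y (a + b) := by
  rw [← Sq_zero_left, Sq_mul h (fm_zero_right v), add_zero, fm_zero_left, add_zero]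

/-- The transvection group is central in `Q_v`. -/
lemma tS_Sq_comm {v y : VV m F} (h : ⟪v, y⟫ = 0) (a b : F) : tS v b * Sq v y a = Sq v y a * tS v b := by
  rw [tS_Sq h, Sq_tS h]

/-- Conjugation of `Sq` by an element moving `v` to a multiple of `v`. -/
lemma Sq_conj (g : Spg m F) {v : VV m F} (y : VV m F) (a c : F) (hg : g.1 *ᵥ v = c • v) (h : ⟪v, y⟫ = 0) :
    g * Sq v y a * g⁻¹ = Sq v (c • (g.1 *ᵥ y)) (c ^ 2 * a) := by
  have e : g * Sq v y a * g⁻¹ = (g * tS v a * g⁻¹) * (g * xS v y 1 * g⁻¹) := by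
    simp only [Sq]
    group
  have h1 : ⟪c • v, g.1 *ᵥ y⟫ = 0 := by
    rw [← hg, fm_act, h]
  have h2 : ⟪v, g.1 *ᵥ y⟫ = 0 := by
    by_cases hc : c = 0
    · have hv : v = 0 := by
        have := inv_act_act g v
        rw [hg, hc, zero_smul] at this
        have h0 : (g⁻¹).1 *ᵥ (0 : VV m F) = 0 := mulVec_zero _
        rw [h0] at this
        exact this.symm
      rw [hv, fm_zero_left]
    · rw [fm_smul_left] at h1
      exact (mul_eq_zero.1 h1).resolve_left hc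
  rw [e, tS_conj, xS_conj, hg, tS_smul, xS_smul_left h2, mul_one, Sq, xS_smul_right h2, mul_one]

/-- The orthogonal complement of a pair of vectors. -/
def Ee (v w : VV m F) : Submodule F (VV m F) where
  carrier := {y | ⟪y, v⟫ = 0 ∧ ⟪y, w⟫ = 0}
  add_mem' := by
    rintro a b ⟨h1, h2⟩ ⟨h3, h4⟩
    exact ⟨by rw [fm_add_left, h1, h3, add_zero], by rw [fm_add_left, h2, h4, add_zero]⟩
  zero_mem' := ⟨fm_zero_left v, fm_zero_left w⟩
  smul_mem' := by
    rintro c a ⟨h1, h2⟩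
    exact ⟨by rw [fm_smul_left, h1, mul_zero], by rw [fm_smul_left, h2, mul_zero]⟩

lemma mem_Ee {v w y : VV m F} : y ∈ Ee v w ↔ ⟪y, v⟫ = 0 ∧ ⟪y, w⟫ = 0 := Iff.rfl

/-- The projection of `V` to `E`. -/
def pr (v w x : VV m F) : VV m F := x - ⟪x, w⟫ • v + ⟪x, v⟫ • w

lemma pr_mem {v w : VV m F} (h : ⟪v, w⟫ = 1) (x : VV m F) : pr v w x ∈ Ee v w := by
  have h' := fm_hyp h
  constructor
  · simp only [pr, fm_add_left, fm_sub_left, fm_smul_left, fm_self, h']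
    ring
  · simp only [pr, fm_add_left, fm_sub_left, fm_smul_left, fm_self, h]
    ring

lemma pr_eq_self {v w y : VV m F} (hy : y ∈ Ee v w) : pr v w y = y := by
  simp [pr, hy.1, hy.2]

lemma fm_pr {v w y : VV m F} (hy : y ∈ Ee v w) (x : VV m F) : ⟪y, pr v w x⟫ = ⟪y, x⟫ := by
  simp only [pr, fm_add_right, fm_sub_right, fm_smul_right, hy.1, hy.2]
  ring

lemma eq_pr_add (v w x : VV m F) : x = pr v w x + ⟪x, w⟫ • v - ⟪x, v⟫ • w := by
  simp only [pr]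
  abel

/-- Non-degeneracy of `E`. -/
lemma exists_Ee_hyp {v w y : VV m F} (h : ⟪v, w⟫ = 1) (hy : y ∈ Ee v w) (hy0 : y ≠ 0) :
    ∃ y' ∈ Ee v w, ⟪y, y'⟫ = 1 := by
  obtain ⟨x, hx⟩ := exists_hyp hy0
  exact ⟨pr v w x, pr_mem h x, by rw [fm_pr hy, hx]⟩

/-- If `z` in `E` is orthogonal to all of `E` then it is `0`. -/
lemma eq_zero_of_Ee_perp {v w y : VV m F} (h : ⟪v, w⟫ = 1) (hy : y ∈ Ee v w)
    (h0 : ∀ y' ∈ Ee v w, ⟪y, y'⟫ = 0) : y = 0 := by
  by_contra hy0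
  obtain ⟨y', hy', h1⟩ := exists_Ee_hyp h hy hy0
  rw [h0 y' hy'] at h1
  exact zero_ne_one h1

section card

variable [Fintype F]

instance instFiniteVV : Finite (VV m F) := inferInstance

lemma card_VV : Nat.card (VV m F) = Fintype.card F ^ (2 * m) := by
  rw [Nat.card_eq_fintype_card, Fintype.card_fun, Fintype.card_sum, Fintype.card_fin, two_mul]

/-- `V = E ⊕ ⟨v, w⟩`. -/
noncomputable def splitEquiv {v w : VV m F} (h : ⟪v, w⟫ = 1) : VV m F ≃ (Ee v w) × F × F where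
  toFun x := (⟨pr v w x, pr_mem h x⟩, ⟪x, w⟫, ⟪x, v⟫)
  invFun p := p.1.1 + p.2.1 • v - p.2.2 • w
  left_inv x := by
    simp only
    exact (eq_pr_add v w x).symm
  right_inv p := by
    obtain ⟨⟨y, hy⟩, a, b⟩ := p
    have e1 : ⟪y + a • v - b • w, w⟫ = a := by
      simp only [fm_sub_left, fm_add_left, fm_smul_left, fm_self, hy.2, h]
      ring
    have e2 : ⟪y + a • v - b • w, v⟫ = b := by
      simp only [fm_sub_left, fm_add_left, fm_smul_left, fm_self, hy.1, fm_hyp h]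
      ring
    simp only [Prod.mk.injEq, Subtype.mk.injEq]
    refine ⟨?_, e1, e2⟩
    rw [pr, e1, e2]
    abel

lemma card_Ee_mul {v w : VV m F} (h : ⟪v, w⟫ = 1) :
    Nat.card (Ee v w) * Fintype.card F ^ 2 = Fintype.card F ^ (2 * m) := by
  rw [← card_VV, Nat.card_congr (splitEquiv h), Nat.card_prod, Nat.card_prod, Nat.card_eq_fintype_card (α := F)]
  ring

lemma card_Ee {v w : VV m F} (h : ⟪v, w⟫ = 1) (hm : 1 ≤ m) :
    Nat.card (Ee v w) = Fintype.card F ^ (2 * m - 2) := by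
  have h1 := card_Ee_mul h
  have hq : 0 < Fintype.card F ^ 2 := by positivity
  apply Nat.eq_of_mul_eq_mul_right hq
  rw [h1, ← pow_add]
  congr 1
  omega

/-- `E` is non-zero for `m ≥ 2`. -/
lemma exists_Ee_ne {v w : VV m F} (h : ⟪v, w⟫ = 1) (hm : 2 ≤ m) : ∃ y ∈ Ee v w, y ≠ 0 := by
  by_contra hcon
  push Not at hcon
  have h1 := card_Ee_mul h
  have hq : 2 ≤ Fintype.card F := Fintype.one_lt_card
  have h2 : Nat.card (Ee v w) = 1 := by
    rw [Nat.card_eq_one_iff_unique]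
    refine ⟨⟨fun a b => Subtype.ext ?_⟩, ⟨⟨0, (Ee v w).zero_mem⟩⟩⟩
    rw [hcon _ a.2, hcon _ b.2]
  rw [h2, one_mul] at h1
  have h3 : Fintype.card F ^ 2 < Fintype.card F ^ (2 * m) :=
    Nat.pow_lt_pow_right (by omega) (by omega)
  omega

end card

/-- The linear map underlying `dd`. -/
def ddLin (v w : VV m F) (c : F) : VV m F →ₗ[F] VV m F where
  toFun x := x + ((c - 1) * ⟪x, w⟫) • v - ((c⁻¹ - 1) * ⟪x, v⟫) • w
  map_add' x y := by
    simp only [fm_add_left]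
    module
  map_smul' a x := by
    simp only [fm_smul_left, RingHom.id_apply]
    module

lemma ddLin_form {v w : VV m F} (h : ⟪v, w⟫ = 1) {c : F} (hc : c ≠ 0) (x y : VV m F) :
    ⟪ddLin v w c x, ddLin v w c y⟫ = ⟪x, y⟫ := by
  have h' := fm_hyp h
  simp only [ddLin, LinearMap.coe_mk, AddHom.coe_mk, fm_add_left, fm_add_right, fm_sub_left, fm_sub_right,
    fm_smul_left, fm_smul_right, fm_self, h, h']
  have e1 : ⟪v, y⟫ = -⟪y, v⟫ := fm_anti y v
  have e2 : ⟪w, y⟫ = -⟪y, w⟫ := fm_anti y w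
  rw [e1, e2]
  have hcc : c * c⁻¹ = 1 := mul_inv_cancel₀ hc
  linear_combination (-(⟪x, w⟫ * ⟪y, v⟫) + ⟪x, v⟫ * ⟪y, w⟫) * hcc

/-- The torus element: `v ↦ c v`, `w ↦ c⁻¹ w`, identity on `E`. -/
noncomputable def dd {v w : VV m F} (h : ⟪v, w⟫ = 1) {c : F} (hc : c ≠ 0) : Spg m F :=
  ⟨LinearMap.toMatrix' (ddLin v w c), (mem_symplecticGroup_iff _).2 (fun x y => by
    rw [LinearMap.toMatrix'_mulVec, LinearMap.toMatrix'_mulVec]
    exact ddLin_form h hc x y)⟩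

lemma dd_act {v w : VV m F} (h : ⟪v, w⟫ = 1) {c : F} (hc : c ≠ 0) (x : VV m F) :
    (dd h hc).1 *ᵥ x = x + ((c - 1) * ⟪x, w⟫) • v - ((c⁻¹ - 1) * ⟪x, v⟫) • w := by
  simp only [dd]
  rw [LinearMap.toMatrix'_mulVec]
  rfl

lemma dd_v {v w : VV m F} (h : ⟪v, w⟫ = 1) {c : F} (hc : c ≠ 0) : (dd h hc).1 *ᵥ v = c • v := by
  rw [dd_act, h, fm_self]
  module

lemma dd_w {v w : VV m F} (h : ⟪v, w⟫ = 1) {c : F} (hc : c ≠ 0) : (dd h hc).1 *ᵥ w = c⁻¹ • w := by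
  rw [dd_act, fm_hyp h, fm_self]
  module

lemma dd_E {v w y : VV m F} (h : ⟪v, w⟫ = 1) {c : F} (hc : c ≠ 0) (hy : y ∈ Ee v w) : (dd h hc).1 *ᵥ y = y := by
  rw [dd_act, hy.1, hy.2]
  simp

/-- The torus commutes with the Levi factor. -/
lemma dd_comm {v w : VV m F} (h : ⟪v, w⟫ = 1) {c : F} (hc : c ≠ 0) {g : Spg m F} (hgv : g.1 *ᵥ v = v)
    (hgw : g.1 *ᵥ w = w) : dd h hc * g = g * dd h hc := by
  apply sp_ext
  intro x
  rw [mul_act, mul_act, dd_act, dd_act]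
  have e1 : ⟪g.1 *ᵥ x, w⟫ = ⟪x, w⟫ := by
    conv_lhs => rw [← hgw]
    rw [fm_act]
  have e2 : ⟪g.1 *ᵥ x, v⟫ = ⟪x, v⟫ := by
    conv_lhs => rw [← hgv]
    rw [fm_act]
  rw [e1, e2, mulVec_sub, mulVec_add, mulVec_smul, mulVec_smul, hgv, hgw]

lemma dd_mul_self_eq {v w : VV m F} (h : ⟪v, w⟫ = 1) {c : F} (hc : c ≠ 0) {c' : F} (hc' : c' ≠ 0) :
    dd h hc * dd h hc' = dd h (mul_ne_zero hc hc') := by
  apply sp_ext
  intro x
  rw [mul_act, dd_act, dd_act, dd_act]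
  have h' := fm_hyp h
  simp only [fm_add_left, fm_sub_left, fm_smul_left, fm_self, h, h', mul_inv]
  have hcc : c * c⁻¹ = 1 := mul_inv_cancel₀ hc
  have hcc' : c' * c'⁻¹ = 1 := mul_inv_cancel₀ hc'
  module

lemma dd_pow {v w : VV m F} (h : ⟪v, w⟫ = 1) {c : F} (hc : c ≠ 0) (k : ℕ) :
    dd h hc ^ k = dd h (pow_ne_zero k hc) := by
  induction k with
  | zero =>
    apply sp_ext
    intro x
    rw [pow_zero, one_act, dd_act]
    simp
  | succ k ih =>
    rw [pow_succ, ih, dd_mul_self_eq]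
    apply sp_ext
    intro x
    rw [dd_act, dd_act, pow_succ]

/-- A family of four vectors with hyperbolic Gram matrix is independent. -/
lemma indep_four {v w u u' : VV m F} (h : ⟪v, w⟫ = 1) (h1 : ⟪u, u'⟫ = 1) (hu : u ∈ Ee v w) (hu' : u' ∈ Ee v w) :
    LinearIndependent F ![v, w, u, u'] := by
  rw [Fintype.linearIndependent_iff]
  intro s hs
  have hs' : s 0 • v + s 1 • w + s 2 • u + s 3 • u' = 0 := by
    have := hs
    rw [Fin.sum_univ_four] at this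
    simpa using this
  have e0 : ⟪s 0 • v + s 1 • w + s 2 • u + s 3 • u', w⟫ = 0 := by rw [hs', fm_zero_left]
  have e1 : ⟪s 0 • v + s 1 • w + s 2 • u + s 3 • u', v⟫ = 0 := by rw [hs', fm_zero_left]
  have e2 : ⟪s 0 • v + s 1 • w + s 2 • u + s 3 • u', u'⟫ = 0 := by rw [hs', fm_zero_left]
  have e3 : ⟪s 0 • v + s 1 • w + s 2 • u + s 3 • u', u⟫ = 0 := by rw [hs', fm_zero_left]
  have a1 := fm_comm0 hu.1
  have a2 := fm_comm0 hu.2
  have a3 := fm_comm0 hu'.1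
  have a4 := fm_comm0 hu'.2
  have a5 := fm_hyp h
  have a6 := fm_hyp h1
  simp only [fm_add_left, fm_smul_left, fm_self, h, h1, hu.1, hu.2, hu'.1, hu'.2, a1, a2, a3, a4, a5, a6] at e0 e1 e2 e3
  simp only [mul_zero, mul_one, add_zero, zero_add, mul_neg] at e0 e1 e2 e3
  intro i
  fin_cases i
  · simpa using e0
  · simpa using e1
  · simpa using e2
  · simpa using e3

/-- A family of three vectors: hyperbolic pair and a nonzero vector of `E`. -/
lemma indep_three {v w u : VV m F} (h : ⟪v, w⟫ = 1) (hu : u ∈ Ee v w) (hu0 : u ≠ 0) :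
    LinearIndependent F ![v, w, u] := by
  rw [Fintype.linearIndependent_iff]
  intro s hs
  have hs' : s 0 • v + s 1 • w + s 2 • u = 0 := by
    have := hs
    rw [Fin.sum_univ_three] at this
    simpa using this
  have e0 : ⟪s 0 • v + s 1 • w + s 2 • u, w⟫ = 0 := by rw [hs', fm_zero_left]
  have e1 : ⟪s 0 • v + s 1 • w + s 2 • u, v⟫ = 0 := by rw [hs', fm_zero_left]
  have a5 := fm_hyp h
  simp only [fm_add_left, fm_smul_left, fm_self, h, hu.1, hu.2, a5] at e0 e1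
  simp only [mul_zero, mul_one, add_zero, zero_add, mul_neg] at e0 e1
  have e0' : s 0 = 0 := e0
  have e1' : s 1 = 0 := by simpa using e1
  have e2' : s 2 = 0 := by
    rw [e0', e1'] at hs'
    simp only [zero_smul, zero_add] at hs'
    exact (smul_eq_zero.1 hs').resolve_right hu0
  intro i
  fin_cases i
  · exact e0'
  · exact e1'
  · exact e2'

/-- The Levi factor is transitive on the non-zero vectors of `E`. -/
lemma levi_trans {v w z z' : VV m F} (h : ⟪v, w⟫ = 1) (hz : z ∈ Ee v w) (hz0 : z ≠ 0) (hz' : z' ∈ Ee v w)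
    (hz0' : z' ≠ 0) : ∃ g : Spg m F, g.1 *ᵥ v = v ∧ g.1 *ᵥ w = w ∧ g.1 *ᵥ z = z' := by
  have a5 := fm_hyp h
  have a1 := fm_comm0 hz.1
  have a2 := fm_comm0 hz.2
  have a3 := fm_comm0 hz'.1
  have a4 := fm_comm0 hz'.2
  obtain ⟨A, -, hA⟩ := exists_closure_family ![v, w, z] ![v, w, z'] (indep_three h hz hz0)
    (indep_three h hz' hz0') (by
      intro i j
      fin_cases i <;> fin_cases j <;> simp [fm_self, h, a5, hz.1, hz.2, hz'.1, hz'.2, a1, a2, a3, a4])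
  exact ⟨A, hA 0, hA 1, hA 2⟩

/-- The Levi factor contains elements scaling a hyperbolic pair of `E`. -/
lemma levi_scale {v w u u' : VV m F} (h : ⟪v, w⟫ = 1) (h1 : ⟪u, u'⟫ = 1) (hu : u ∈ Ee v w) (hu' : u' ∈ Ee v w)
    {c : F} (hc : c ≠ 0) : ∃ g : Spg m F, g.1 *ᵥ v = v ∧ g.1 *ᵥ w = w ∧ g.1 *ᵥ u = c • u := by
  have hcu : c • u ∈ Ee v w := (Ee v w).smul_mem c hu
  have hcu' : c⁻¹ • u' ∈ Ee v w := (Ee v w).smul_mem _ hu'
  have h2 : ⟪c • u, c⁻¹ • u'⟫ = 1 := by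
    rw [fm_smul_left, fm_smul_right, h1, mul_one, mul_inv_cancel₀ hc]
  have a5 := fm_hyp h
  have a6 := fm_hyp h1
  have a1 := fm_comm0 hu.1
  have a2 := fm_comm0 hu.2
  have a3 := fm_comm0 hu'.1
  have a4 := fm_comm0 hu'.2
  obtain ⟨A, -, hA⟩ := exists_closure_family ![v, w, u, u'] ![v, w, c • u, c⁻¹ • u'] (indep_four h h1 hu hu')
    (indep_four h h2 hcu hcu') (by
      intro i j
      fin_cases i <;> fin_cases j <;> simp [fm_self, h, h1, a5, a6, hu.1, hu.2, hu'.1, hu'.2, a1, a2, a3, a4,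
        fm_smul_left, fm_smul_right, hc]
      )
  exact ⟨A, hA 0, hA 1, hA 2⟩

end Cfsg.Agent.Lib.MinSp.Basic
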