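import Cfsg.Agent.Lib.MinSp.TI

/-!
# Minimal index of `PSp`: Case A

Some transvection group fixes a point of the transitive `G`-set `X`.
-/

set_option autoImplicit false

namespace Cfsg.Agent.Lib.MinSp.CaseA

open Matrix Cfsg Cfsg.Agent.Lib.Classical.SympForm Cfsg.Agent.Lib.PresSp.Vec Cfsg.Agent.Lib.MinSp.Basic
  Cfsg.Agent.Lib.MinSp.Omega Cfsg.Agent.Lib.MinSp.Cover Cfsg.Agent.Lib.MinSp.Count Cfsg.Agent.Lib.MinSp.Perp
  Cfsg.Agent.Lib.MinSp.Squares Cfsg.Agent.Lib.MinSp.Numbers Cfsg.Agent.Lib.MinSp.Double Cfsg.Agent.Lib.MinSp.TI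

variable {m : ℕ} {F : Type*} [Field F] [Fintype F] {X : Type*} [MulAction (Spg m F) X]

local notation "⟪" x ", " y "⟫" => sympForm m F x y

/-- The index of the stabiliser of `x` is the size of the set. -/
lemma index_stab [Finite X] [MulAction.IsPretransitive (Spg m F) X] (x : X) :
    (MulAction.stabilizer (Spg m F) x).index = Nat.card X := by
  rw [MulAction.index_stabilizer, MulAction.orbit_eq_univ (Spg m F) x, Set.ncard_univ]

/-- A bound for the index of a group containing the stabiliser of `x`. -/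
lemma index_le_of_stab [Finite X] [MulAction.IsPretransitive (Spg m F) X] {x : X} {H : Subgroup (Spg m F)}
    (hH : ∀ g : Spg m F, g • x = x → g ∈ H) : H.index ≤ Nat.card X := by
  rw [← index_stab (m := m) (F := F) x]
  exact Nat.le_of_dvd (Nat.pos_of_ne_zero Subgroup.index_ne_zero_of_finite)
    (Subgroup.index_dvd_of_le (fun g hg => hH g hg))

/-- If `S` is everything, then `X` is a point. -/
lemma full_false [Finite X] [MulAction.IsPretransitive (Spg m F) X] {x : X} {a b : VV m F} {S : Submodule F (VV m F)}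
    (hab : ⟪a, b⟫ = 1) (ha : a ∈ Om x) (hb : b ∈ Om x) (hS : ∀ z, z ∈ S ↔ pr a b z + a ∈ Om x) (hall : ∀ z, z ∈ S)
    (h2 : 2 ≤ Nat.card X) : False := by
  have : Nat.card X = 1 := by
    apply Double.card_eq_one_of_fix (m := m) (F := F) (x := x)
    intro u hu
    obtain ⟨s, hs⟩ := exists_hyp hu
    exact (S_sub_Om hab ha hb hS (hall u) (hall s) (by rw [hs]; exact one_ne_zero)).2
  omega

/-- The main dichotomy for `S(a, b)` when `Om x` is big. -/
theorem big_false [Finite X] [MulAction.IsPretransitive (Spg m F) X] (hq : 3 ≤ Fintype.card F) (hm : 2 ≤ m)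
    {x : X} {a b : VV m F} {S : Submodule F (VV m F)} (hab : ⟪a, b⟫ = 1) (ha : a ∈ Om x) (hb : b ∈ Om x)
    (hS : ∀ z, z ∈ S ↔ pr a b z + a ∈ Om x) (h2 : 2 ≤ Nat.card X)
    (hX : (Fintype.card F - 1) * Nat.card X + Fintype.card F ≤ Fintype.card F ^ (2 * m))
    (hbig : (Fintype.card F - 1) * Fintype.card F ^ (2 * m - 2) < Nat.card (Om x : Set (VV m F))) : False := by
  classical
  set q := Fintype.card F with hqdef
  have haS := a_mem_S hab ha hS
  have hbS := b_mem_S hab ha hS
  -- the sizes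
  have hcard := card_orth S
  rw [← hqdef] at hcard
  set T := {z : VV m F // ∀ y ∈ S, ⟪z, y⟫ = 0} with hT
  have hSq : Nat.card S = q ^ Module.finrank F S := by
    have := Module.natCard_eq_pow_finrank (K := F) (V := S)
    rwa [Nat.card_eq_fintype_card (α := F)] at this
  have hinj : Function.Injective (fun p : F × F => (⟨p.1 • a + p.2 • b, S.add_mem (S.smul_mem _ haS) (S.smul_mem _ hbS)⟩ : S)) := by
    rintro ⟨α, β⟩ ⟨α', β'⟩ h
    have h1 : α • a + β • b = α' • a + β' • b := congrArg (fun t : S => t.1) h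
    have h2 : ⟪α • a + β • b, b⟫ = ⟪α' • a + β' • b, b⟫ := by rw [h1]
    have h3 : ⟪α • a + β • b, a⟫ = ⟪α' • a + β' • b, a⟫ := by rw [h1]
    simp only [fm_add_left, fm_smul_left, fm_self, hab, fm_hyp hab, mul_zero, add_zero, zero_add, mul_one, mul_neg, neg_inj] at h2 h3
    subst h2
    subst h3
    rfl
  have hS2 : q ^ 2 ≤ Nat.card S := by
    have := Nat.card_le_card_of_injective _ hinj
    rw [Nat.card_prod, Nat.card_eq_fintype_card (α := F), ← sq] at this
    exact this
  have hq2 : 2 ≤ q := by omega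
  have hd2 : 2 ≤ Module.finrank F S := by
    rw [hSq] at hS2
    exact (Nat.pow_le_pow_iff_right (by omega)).1 hS2
  set d := Module.finrank F S with hd
  have hTpos : 0 < Nat.card T := by
    haveI : Nonempty T := ⟨⟨0, fun y _ => fm_zero_left y⟩⟩
    exact Nat.card_pos
  have hd3 : d ≤ 2 * m := by
    have h1 : q ^ d ≤ q ^ (2 * m) := by
      rw [← hSq, ← hcard]
      exact Nat.le_mul_of_pos_right _ hTpos
    exact (Nat.pow_le_pow_iff_right (by omega)).1 h1
  have hTq : Nat.card T = q ^ (2 * m - d) := by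
    have h1 : q ^ d * Nat.card T = q ^ d * q ^ (2 * m - d) := by
      have e : q ^ d * q ^ (2 * m - d) = q ^ (2 * m) := by
        rw [← pow_add]
        congr 1
        omega
      rw [e, ← hSq, hcard]
    exact Nat.eq_of_mul_eq_mul_left (by positivity) h1
  have hOmsub : (Om x : Set (VV m F)) ⊆ (S : Set (VV m F)) ∪ {z | ∀ y ∈ S, ⟪z, y⟫ = 0} := by
    intro z hz
    rcases Om_sub hab ha hb hS hz with h | h
    · exact Or.inl h
    · exact Or.inr h
  have hOmle : Nat.card (Om x : Set (VV m F)) ≤ Nat.card S + Nat.card T := by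
    rw [Nat.card_coe_set_eq]
    refine (Set.ncard_le_ncard hOmsub (Set.toFinite _)).trans ((Set.ncard_union_le _ _).trans ?_)
    apply le_of_eq
    rw [← Nat.card_coe_set_eq, ← Nat.card_coe_set_eq]
    rfl
  by_cases hd4 : d ≤ 2 * m - 2
  · exfalso
    have h1 : q ^ d ≤ q ^ (2 * m - 2) := Nat.pow_le_pow_right (by omega) hd4
    have h3 : q ^ (2 * m - d) ≤ q ^ (2 * m - 2) := Nat.pow_le_pow_right (by omega) (by omega)
    have h4 : 2 * q ^ (2 * m - 2) ≤ (q - 1) * q ^ (2 * m - 2) := Nat.mul_le_mul_right _ (by omega)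
    rw [hSq, hTq] at hOmle
    omega
  by_cases hd5 : d = 2 * m
  · have hall : ∀ z, z ∈ S := by
      have h1 : S.toAddSubgroup = ⊤ := by
        apply AddSubgroup.eq_top_of_card_eq
        change Nat.card S = _
        rw [hSq, hd5, card_VV]
      intro z
      have : z ∈ S.toAddSubgroup := by rw [h1]; trivial
      exact this
    exact full_false hab ha hb hS hall h2
  · -- the hyperplane case
    have hd6 : d = 2 * m - 1 := by omega
    have hTq' : Nat.card T = q := by
      rw [hTq, hd6]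
      have : 2 * m - (2 * m - 1) = 1 := by omega
      rw [this, pow_one]
    haveI : Finite T := inferInstance
    haveI : Nontrivial T := Finite.one_lt_card_iff_nontrivial.1 (by omega)
    obtain ⟨z, hz⟩ := exists_ne (⟨0, fun y _ => fm_zero_left y⟩ : T)
    have hz0 : z.1 ≠ 0 := fun h => hz (Subtype.ext h)
    have hzsmul : ∀ κ : F, ∀ y ∈ S, ⟪κ • z.1, y⟫ = 0 := by
      intro κ y hy
      rw [fm_smul_left, z.2 y hy, mul_zero]
    have hsurj : Function.Surjective (fun κ : F => (⟨κ • z.1, hzsmul κ⟩ : T)) := by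
      have hinj2 : Function.Injective (fun κ : F => (⟨κ • z.1, hzsmul κ⟩ : T)) := by
        intro a b h
        exact smul_left_injective F hz0 (congrArg (fun t : T => t.1) h)
      refine (hinj2.bijective_of_nat_card_le ?_).2
      rw [hTq', Nat.card_eq_fintype_card]
    have hline : ∀ t : VV m F, (∀ y ∈ S, ⟪t, y⟫ = 0) → ∃ κ : F, t = κ • z.1 := by
      intro t ht
      obtain ⟨κ, hκ⟩ := hsurj ⟨t, ht⟩
      exact ⟨κ, (congrArg (fun t : T => t.1) hκ).symm⟩
    have hOmperp : ∀ u ∈ (Om x : Set (VV m F)), ⟪z.1, u⟫ = 0 := by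
      intro u hu
      rcases Om_sub hab ha hb hS hu with h | h
      · exact z.2 u h
      · obtain ⟨κ, rfl⟩ := hline u h
        rw [fm_smul_right, fm_self, mul_zero]
    have hstab : ∀ g : Spg m F, g • x = x → g ∈ lineStab z.1 := by
      intro g hg
      have hginv : g⁻¹ • x = x := inv_smul_eq_iff.2 hg.symm
      have hkey : ∀ s ∈ (Om x : Set (VV m F)), ⟪g.1 *ᵥ z.1, s⟫ = 0 := by
        intro s hs
        have h1 := hOmperp _ (Om_fix hs hginv)
        rw [← fm_act g, act_inv_act] at h1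
        exact h1
      have hkey2 : ∀ s ∈ S, ⟪g.1 *ᵥ z.1, s⟫ = 0 := by
        intro s hs
        by_cases hs2 : ∃ s' ∈ S, ⟪s, s'⟫ ≠ 0
        · obtain ⟨s', hs', hne⟩ := hs2
          exact hkey s (S_sub_Om hab ha hb hS hs hs' hne)
        · push Not at hs2
          have h1 : s + a ∈ (Om x : Set (VV m F)) := by
            apply S_sub_Om hab ha hb hS (S.add_mem hs haS) hbS
            rw [fm_add_left, hs2 b hbS, hab, zero_add]
            exact one_ne_zero
          have h3 := hkey _ h1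
          rw [fm_add_right, hkey a ha, add_zero] at h3
          exact h3
      obtain ⟨κ, hκ⟩ := hline _ hkey2
      refine ⟨κ, ?_, hκ⟩
      rintro rfl
      rw [zero_smul] at hκ
      apply hz0
      have := inv_act_act g z.1
      rw [hκ] at this
      rw [← this]
      exact mulVec_zero _
    have h1 := index_le_of_stab hstab
    have h3 : (q - 1) * (lineStab z.1).index = q ^ (2 * m) - 1 := index_lineStab hz0
    have h4 : (q - 1) * (lineStab z.1).index ≤ (q - 1) * Nat.card X := Nat.mul_le_mul_left _ h1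
    have h5 : 0 < q ^ (2 * m) := by positivity
    omega

/-- The span of a pairwise orthogonal set is totally isotropic. -/
lemma span_iso {O : Set (VV m F)} (h : ∀ a ∈ O, ∀ b ∈ O, ⟪a, b⟫ = 0) :
    ∀ a ∈ Submodule.span F O, ∀ b ∈ Submodule.span F O, ⟪a, b⟫ = 0 := by
  have h1 : ∀ a ∈ O, ∀ b ∈ Submodule.span F O, ⟪a, b⟫ = 0 := by
    intro a ha b hb
    induction hb using Submodule.span_induction with
    | mem x hx => exact h a ha x hx
    | zero => exact fm_zero_right a
    | add x y _ _ hx hy => rw [fm_add_right, hx, hy, add_zero]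
    | smul c x _ hx => rw [fm_smul_right, hx, mul_zero]
  intro a ha b hb
  induction ha using Submodule.span_induction with
  | mem x hx => exact h1 x hx b hb
  | zero => exact fm_zero_left b
  | add x y _ _ hx hy => rw [fm_add_left, hx, hy, add_zero]
  | smul c x _ hx => rw [fm_smul_left, hx, mul_zero]

/-- A big `Om x` contains a hyperbolic pair. -/
theorem big_hyp (hm : 2 ≤ m) (hq : 3 ≤ Fintype.card F) {x : X}
    (hbig : (Fintype.card F - 1) * Fintype.card F ^ (2 * m - 2) < Nat.card (Om x : Set (VV m F))) :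
    ∃ a b : VV m F, a ∈ Om x ∧ b ∈ Om x ∧ ⟪a, b⟫ = 1 := by
  classical
  by_contra hcon
  push Not at hcon
  have hiso : ∀ a ∈ (Om x : Set (VV m F)), ∀ b ∈ (Om x : Set (VV m F)), ⟪a, b⟫ = 0 := by
    intro a ha b hb
    by_contra hne
    apply hcon a ((⟪a, b⟫)⁻¹ • b) ha (Om_smul hb (inv_ne_zero hne))
    rw [fm_smul_right, inv_mul_cancel₀ hne]
  set q := Fintype.card F with hqdef
  have h1 := card_ti_sq (Submodule.span F (Om x : Set (VV m F))) (span_iso hiso)
  rw [← hqdef] at h1
  have h2 : Nat.card (Om x : Set (VV m F)) ≤ Nat.card (Submodule.span F (Om x : Set (VV m F))) := by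
    apply Nat.card_le_card_of_injective (fun u : (Om x : Set (VV m F)) =>
      (⟨u.1, Submodule.subset_span u.2⟩ : Submodule.span F (Om x : Set (VV m F))))
    intro a b h
    exact Subtype.ext (congrArg (fun t : Submodule.span F (Om x : Set (VV m F)) => t.1) h)
  have h3 : q ^ (2 * m - 2) ≤ (q - 1) * q ^ (2 * m - 2) := Nat.le_mul_of_pos_left _ (by omega)
  have h4 : q ^ (2 * m - 2) < Nat.card (Submodule.span F (Om x : Set (VV m F))) := by omega
  have h5 := Nat.mul_self_lt_mul_self h4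
  have h6 : q ^ (2 * m) ≤ q ^ (2 * m - 2) * q ^ (2 * m - 2) := by
    rw [← pow_add]
    exact Nat.pow_le_pow_right (by omega) (by omega)
  omega

section main

variable {p : ℕ} [Fact p.Prime] [CharP F p]

/-- Fixed points of a transvection group give a big `Om`. -/
theorem big_of_fix [Finite X] [MulAction.IsPretransitive (Spg m F) X] {l : F →+ ZMod p} (hl : l ≠ 0)
    (hq : 3 ≤ Fintype.card F) (hm : 2 ≤ m) {v w : VV m F} (hvw : ⟪v, w⟫ = 1) {x : X} (hfix : ∀ c, tS v c • x = x)
    (hNE : ∃ y ∈ Ee v w, y ∉ Ns v w x)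
    (hX : (Fintype.card F - 1) * Nat.card X + Fintype.card F ≤ Fintype.card F ^ (2 * m)) :
    (Fintype.card F - 1) * Fintype.card F ^ (2 * m - 2) < Nat.card (Om x : Set (VV m F)) := by
  classical
  set q := Fintype.card F with hqdef
  have he1 : Nat.card (Ee v w) = q ^ (2 * m - 2) := card_Ee hvw (by omega)
  have he0 : 0 < q ^ (2 * m - 2) := by positivity
  set R := Rs v x with hRdef
  set N := Ns v w x with hNdef
  set A := perpE l v w N with hAdef
  have hN : ∀ y ∈ N, y ∈ Ee v w := fun y hy => hy.1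
  have hA : ∀ y ∈ A, y ∈ Ee v w := fun y hy => hy.1
  have hperp : perpE l v w A = N := perpE_perpE hl hvw N hN
  have hA0 : ∃ u ∈ A, u ≠ 0 := by
    by_contra hcon
    push Not at hcon
    obtain ⟨y, hy, hyN⟩ := hNE
    apply hyN
    rw [← hperp]
    refine ⟨hy, fun z hz => ?_⟩
    rw [hcon z hz, fm_zero_right, map_zero]
  obtain ⟨u, hu, hu0⟩ := hA0
  have hsA := cover_one hvw A hA hu hu0
  have hY : ∀ (c : F) (hc : c ≠ 0) (g : Spg m F), g.1 *ᵥ v = v → g.1 *ᵥ w = w →
      ∀ z ∈ {z : X | ∀ c, tS v c • z = z}, (dd hvw hc * g) • z ∈ {z : X | ∀ c, tS v c • z = z} := by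
    intro c hc g h1 h2 z hz b
    have h3 : (dd hvw hc * g).1 *ᵥ v = c • v := by rw [mul_act, h1, dd_v]
    have h4 := Rs_act h3 (x := z) (a := (c ^ 2)⁻¹ * b) (hz _)
    rw [mul_inv_cancel_left₀ (pow_ne_zero 2 hc)] at h4
    exact h4
  have hZ : ∀ z ∈ Orb v w x, z ∈ {z : X | ∀ c, tS v c • z = z} ∧ Rs v z = R ∧ Ns v w z = N := by
    intro z hz
    refine ⟨fun c => ?_, Rs_Orb hz, Ns_Orb hz⟩
    have h1 : c ∈ Rs v z := by
      rw [Rs_Orb hz]
      exact hfix c
    exact h1
  have hc1 := count1 (l := l) hvw R N hN _ _ hY hZ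
  rw [card_Orb_eq hl hvw x, ← hRdef, ← hNdef, ← hAdef] at hc1
  set τ := Nat.card (perpF l R) with hτdef
  set t := Nat.card A with htdef
  set sR := Nat.card (Rconj (R : Set F)) with hsRdef
  set sA := Nat.card (Aconj v w (A : Set (VV m F))) with hsAdef
  have hsR1 : 1 ≤ sR := by
    haveI : Nonempty (Rconj (R : Set F)) := ⟨⟨_, self_mem_Rconj _⟩⟩
    exact Nat.card_pos
  have hsA1 : 1 ≤ sA := by
    haveI : Nonempty (Aconj v w (A : Set (VV m F))) := ⟨⟨_, self_mem_Aconj _ _ _⟩⟩
    exact Nat.card_pos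
  have ht1 : 1 ≤ t := Nat.card_pos
  have hτ1 : 1 ≤ τ := Nat.card_pos
  have ha : Nat.card (Ee v w) ≤ sA * t := by
    obtain ⟨T, hT⟩ : ∃ T, t = T + 1 := ⟨t - 1, by omega⟩
    rw [hT] at hsA ⊢
    have e3 : T + 1 - 1 = T := by omega
    rw [e3] at hsA
    rw [mul_add, mul_one]
    omega
  have hYbig : q ^ (2 * m - 2) ≤ Nat.card {z : X | ∀ c, tS v c • z = z} := by
    rw [← he1]
    refine ha.trans (le_trans ?_ hc1)
    calc sA * t = 1 * sA * (1 * t) := by ring
      _ ≤ sR * sA * (τ * t) := Nat.mul_le_mul (Nat.mul_le_mul_right _ hsR1) (Nat.mul_le_mul_right _ hτ1)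
  have hdc := Double.double_count x (ne_zero_of_hyp hvw)
  rw [← hqdef] at hdc
  by_contra hcon
  have hle : Nat.card (Om x : Set (VV m F)) ≤ (q - 1) * q ^ (2 * m - 2) := not_lt.1 hcon
  have h1 : (q ^ (2 * m) - 1) * q ^ (2 * m - 2) ≤ ((q - 1) * Nat.card X) * q ^ (2 * m - 2) := by
    calc (q ^ (2 * m) - 1) * q ^ (2 * m - 2) ≤ (q ^ (2 * m) - 1) * Nat.card {z : X | ∀ c, tS v c • z = z} :=
          Nat.mul_le_mul_left _ hYbig
      _ = Nat.card X * Nat.card (Om x : Set (VV m F)) := hdc.symm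
      _ ≤ Nat.card X * ((q - 1) * q ^ (2 * m - 2)) := Nat.mul_le_mul_left _ hle
      _ = _ := by ring
  have h2 := Nat.le_of_mul_le_mul_right h1 he0
  have h3 : 0 < q ^ (2 * m) := by positivity
  omega

/-- **Case A.** -/
theorem caseA (p : ℕ) [Fact p.Prime] [CharP F p] [Finite X] [MulAction.IsPretransitive (Spg m F) X]
    (hq : 3 ≤ Fintype.card F) (hm : 2 ≤ m) {x₀ : X} {v₀ : VV m F} (hv₀ : v₀ ∈ (Om x₀ : Set (VV m F)))
    (h2 : 2 ≤ Nat.card X)
    (hX : (Fintype.card F - 1) * Nat.card X + Fintype.card F ≤ Fintype.card F ^ (2 * m)) : False := by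
  classical
  obtain ⟨l, hl⟩ := exists_functional (F := F) (p := p)
  by_cases hA1 : ∃ (x' : X) (v w : VV m F), ⟪v, w⟫ = 1 ∧ (∀ c, tS v c • x' = x') ∧ ∃ y ∈ Ee v w, y ∉ Ns v w x'
  · obtain ⟨x', v, w, hvw, hfix, hNE⟩ := hA1
    have hbig := big_of_fix hl hq hm hvw hfix hNE hX
    obtain ⟨a, b, ha, hb, hab⟩ := big_hyp hm hq hbig
    obtain ⟨S, hS⟩ := exists_S hq hab ha hb
    exact big_false hq hm hab ha hb hS h2 hX hbig
  · push Not at hA1
    by_cases hpair : ∃ a b : VV m F, a ∈ Om x₀ ∧ b ∈ Om x₀ ∧ ⟪a, b⟫ = 1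
    · obtain ⟨a, b, ha, hb, hab⟩ := hpair
      obtain ⟨S, hS⟩ := exists_S hq hab ha hb
      apply full_false hab ha hb hS ?_ h2
      intro z
      rw [hS]
      have he := pr_mem hab z
      obtain ⟨-, α, hα⟩ := hA1 x₀ a b hab ha.2 (-pr a b z) ((Ee a b).neg_mem he)
      have hv1 : ⟪a, -pr a b z⟫ = 0 := by
        rw [fm_neg_right, fm_comm0 he.1, neg_zero]
      have e1 : Sq a (-pr a b z) α = tS a α * Sq a (-pr a b z) 0 := by
        rw [tS_Sq hv1, zero_add]
      rw [e1, mul_smul] at hα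
      have h3 : Sq a (-pr a b z) 0 • x₀ = x₀ := by
        have h4 : tS a α • (Sq a (-pr a b z) 0 • x₀) = tS a α • x₀ := by
          rw [hα, ha.2]
        exact smul_left_cancel _ h4
      have h4 := Om_fix hb h3
      rw [Sq_act hv1, fm_hyp hab, fm_neg_right, fm_comm0 he.2] at h4
      have h5 : pr a b z + (0 : F) • a + (1 : F) • b ∈ Om x₀ := by
        convert h4 using 1
        module
      have h6 := step_all hab ha hb he (Or.inr one_ne_zero) h5 (α := 1) (β := 0) (Or.inl one_ne_zero)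
      simpa using h6
    · push Not at hpair
      have hiso : ∀ a ∈ (Om x₀ : Set (VV m F)), ∀ b ∈ (Om x₀ : Set (VV m F)), ⟪a, b⟫ = 0 := by
        intro a ha b hb
        by_contra hne
        apply hpair a ((⟪a, b⟫)⁻¹ • b) ha (Om_smul hb (inv_ne_zero hne))
        rw [fm_smul_right, inv_mul_cancel₀ hne]
      set W := Submodule.span F (Om x₀ : Set (VV m F)) with hWdef
      have hstab : ∀ g : Spg m F, g • x₀ = x₀ → g ∈ subStab W := by
        intro g hg
        have key : ∀ g : Spg m F, g • x₀ = x₀ → ∀ z ∈ W, g.1 *ᵥ z ∈ W := by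
          intro g hg z hz
          induction hz using Submodule.span_induction with
          | mem x hx => exact Submodule.subset_span (Om_fix hx hg)
          | zero =>
            rw [mulVec_zero]
            exact W.zero_mem
          | add x y _ _ hx hy =>
            rw [mulVec_add]
            exact W.add_mem hx hy
          | smul c x _ hx =>
            rw [mulVec_smul]
            exact W.smul_mem c hx
        exact mem_subStab_of (key g hg) (key g⁻¹ (inv_smul_eq_iff.2 hg.symm))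
      have h3 := index_le_of_stab hstab
      refine ti_bound p hq hm (span_iso hiso) (Submodule.subset_span hv₀) hv₀.1 ?_
      refine le_trans ?_ hX
      exact Nat.add_le_add_right (Nat.mul_le_mul_left (Fintype.card F - 1) h3) _

end main

end Cfsg.Agent.Lib.MinSp.CaseA
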