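import Mathlib

/-!
# Minimal index of `PSp`: elementary inequalities
-/

set_option autoImplicit false

namespace Cfsg.Agent.Lib.MinSp.Numbers

/-- A point-set of size at least `e (q + 2)` is too large. -/
lemma num1 {q e X a b : ℕ} (hq : 3 ≤ q) (he : 0 < e) (hX : (q - 1) * X + q ≤ q ^ 2 * e) (ha : e ≤ a)
    (hb : q + 2 ≤ b) (hab : a * b ≤ X) : False := by
  obtain ⟨k, rfl⟩ : ∃ k, q = k + 3 := ⟨q - 3, by omega⟩
  have e1 : k + 3 - 1 = k + 2 := by omega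
  rw [e1] at hX
  have h1 : e * (k + 3 + 2) ≤ a * b := Nat.mul_le_mul ha hb
  have h2 : (k + 2) * (e * (k + 5)) ≤ (k + 2) * X := Nat.mul_le_mul_left _ (h1.trans hab)
  nlinarith

/-- The case of a subgroup covering `E \ {0}` twice. -/
lemma num2 {q e X a b : ℕ} (hq : 3 ≤ q) (he : q ^ 2 ≤ e) (hX : (q - 1) * X + q ≤ q ^ 2 * e)
    (ha : 2 * (e - 1) ≤ a) (hb : q + 2 ≤ 2 * b) (hab : a * b ≤ X) : False := by
  obtain ⟨k, rfl⟩ : ∃ k, q = k + 3 := ⟨q - 3, by omega⟩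
  have e1 : k + 3 - 1 = k + 2 := by omega
  rw [e1] at hX
  obtain ⟨E, rfl⟩ : ∃ E, e = E + 1 := ⟨e - 1, by have : 0 < (k + 3) ^ 2 := by positivity
                                                 omega⟩
  have e2 : E + 1 - 1 = E := by omega
  rw [e2] at ha
  have h1 : (2 * E) * (k + 3 + 2) ≤ a * (2 * b) := Nat.mul_le_mul ha hb
  have h2 : E * (k + 5) ≤ X := by nlinarith
  have h3 : (k + 2) * (E * (k + 5)) ≤ (k + 2) * X := Nat.mul_le_mul_left _ h2
  nlinarith [mul_le_mul_left (show (k + 3) ^ 2 ≤ E + 1 from he) (k + 1), sq_nonneg k]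

/-- The case of a proper subgroup of a line in characteristic two. -/
lemma num3 {q e X t s : ℕ} (hq : 3 ≤ q) (he : q ^ 2 ≤ e) (hX : (q - 1) * X + q ≤ q ^ 2 * e)
    (h1 : e - 1 ≤ s * (t - 1)) (ht : 2 * t ≤ q) (h0 : 0 < t) (hab : q * (t * s) ≤ X) : False := by
  obtain ⟨k, rfl⟩ : ∃ k, q = k + 3 := ⟨q - 3, by omega⟩
  have e1 : k + 3 - 1 = k + 2 := by omega
  rw [e1] at hX
  obtain ⟨E, rfl⟩ : ∃ E, e = E + 1 := ⟨e - 1, by have : 0 < (k + 3) ^ 2 := by positivity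
                                                 omega⟩
  have e2 : E + 1 - 1 = E := by omega
  rw [e2] at h1
  obtain ⟨T, rfl⟩ : ∃ T, t = T + 1 := ⟨t - 1, by omega⟩
  have e3 : T + 1 - 1 = T := by omega
  rw [e3] at h1
  set W := (T + 1) * s with hW
  have h2 : (k + 3) * E ≤ (k + 1) * W := by
    have : (k + 3) * E ≤ (k + 3) * (s * T) := Nat.mul_le_mul_left _ h1
    have h3 : (k + 3) * (s * T) + s * (k + 1 - 2 * T) = (k + 1) * W := by
      obtain ⟨d, hd⟩ : ∃ d, k + 1 = 2 * T + d := ⟨k + 1 - 2 * T, by omega⟩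
      have e4 : k + 1 - 2 * T = d := by omega
      rw [e4, hW, hd]
      have e5 : k = 2 * T + d - 1 := by omega
      have : k + 3 = 2 * T + d + 2 := by omega
      rw [this]
      ring
    nlinarith
  have h3 : (k + 3) * W ≤ X := hab
  have h4 : (k + 2) * ((k + 3) * W) ≤ (k + 2) * X := Nat.mul_le_mul_left _ h3
  have h5 : (k + 2) * W + 1 ≤ (k + 3) * (E + 1) := by
    have : (k + 3) * ((k + 2) * W + 1) ≤ (k + 3) * ((k + 3) * (E + 1)) := by nlinarith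
    exact Nat.le_of_mul_le_mul_left this (by omega)
  have h6 : W ≤ k + 2 := by nlinarith
  have h7 : (k + 3) * E ≤ (k + 1) * (k + 2) := h2.trans (Nat.mul_le_mul_left _ h6)
  have h8 : (k + 3) ^ 2 ≤ E + 1 := he
  nlinarith

/-- The bound for `b` in characteristic two. -/
lemma num4 {q r τ s σ : ℕ} (hr : r * τ = q) (hs : σ ≤ s * (τ - 1)) (hσ : q - 1 ≤ σ) (hq : 3 ≤ q) (hr2 : 2 ≤ r) :
    q + 2 ≤ τ * s := by
  have h0 : 0 < τ := by
    rcases Nat.eq_zero_or_pos τ with h | h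
    · subst h
      omega
    · exact h
  obtain ⟨T, rfl⟩ : ∃ T, τ = T + 1 := ⟨τ - 1, by omega⟩
  have e3 : T + 1 - 1 = T := by omega
  rw [e3] at hs
  have h1 : 2 * (T + 1) ≤ q := by
    rw [← hr]
    exact Nat.mul_le_mul_right _ hr2
  by_cases h3 : 3 ≤ s
  · have e4 : (T + 1) * s = s * T + s := by ring
    rw [e4]
    generalize s * T = P at *
    omega
  · have h4 : s ≤ 2 := by omega
    have h5 : s * T ≤ 2 * T := Nat.mul_le_mul_right _ h4
    omega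

/-- The bound for `b` in odd characteristic. -/
lemma num5 {q r τ s σ : ℕ} (hr : r * τ = q) (hs : σ ≤ s * (τ - 1)) (hσ : q - 1 ≤ 2 * σ) (hq : 3 ≤ q) (hr2 : 3 ≤ r)
    (hs1 : 1 ≤ s) : q + 2 ≤ 2 * (τ * s) := by
  have h0 : 0 < τ := by
    rcases Nat.eq_zero_or_pos τ with h | h
    · subst h
      omega
    · exact h
  obtain ⟨T, rfl⟩ : ∃ T, τ = T + 1 := ⟨τ - 1, by omega⟩
  have e3 : T + 1 - 1 = T := by omega
  rw [e3] at hs
  have h1 : 3 * (T + 1) ≤ q := by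
    rw [← hr]
    exact Nat.mul_le_mul_right _ hr2
  by_cases h3 : 2 ≤ s
  · have e4 : (T + 1) * s = s * T + s := by ring
    rw [e4]
    generalize s * T = P at *
    omega
  · have h4 : s = 1 := by omega
    subst h4
    omega

lemma num6 {q s : ℕ} (hq : 3 ≤ q) (hs : 1 ≤ s) : q + 2 ≤ 2 * (q * s) := by
  have : q * 1 ≤ q * s := Nat.mul_le_mul_left _ hs
  omega

/-- The case of Lagrangian lines in `Sp₄`. -/
lemma num7 {q I om f s : ℕ} (hq : 3 ≤ q) (h1 : I * om = (q ^ 4 - 1) * f) (h2 : om ≤ q ^ 2 - 1) (h3 : s ≤ f)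
    (h4 : q ^ 2 - 1 ≤ s * (q - 1)) (hX : (q - 1) * I + q ≤ q ^ 4) : False := by
  obtain ⟨k, rfl⟩ : ∃ k, q = k + 3 := ⟨q - 3, by omega⟩
  have e1 : k + 3 - 1 = k + 2 := by omega
  have e2 : (k + 3) ^ 2 - 1 = (k + 2) * (k + 4) := by
    have : (k + 3) ^ 2 = (k + 2) * (k + 4) + 1 := by ring
    omega
  have e3 : (k + 3) ^ 4 - 1 = (k + 2) * (k + 4) * ((k + 3) ^ 2 + 1) := by
    have : (k + 3) ^ 4 = (k + 2) * (k + 4) * ((k + 3) ^ 2 + 1) + 1 := by ring
    omega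
  rw [e1] at h4 hX
  rw [e2] at h2 h4
  rw [e3] at h1
  have h5 : k + 4 ≤ s := by
    have : (k + 2) * (k + 4) ≤ (k + 2) * s := by
      rw [mul_comm (k + 2) s]
      exact h4
    exact Nat.le_of_mul_le_mul_left this (by omega)
  have h6 : k + 4 ≤ f := h5.trans h3
  have h7 : (k + 2) * (k + 4) * ((k + 3) ^ 2 + 1) * (k + 4) ≤ I * ((k + 2) * (k + 4)) := by
    calc (k + 2) * (k + 4) * ((k + 3) ^ 2 + 1) * (k + 4) ≤ (k + 2) * (k + 4) * ((k + 3) ^ 2 + 1) * f :=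
          Nat.mul_le_mul_left _ h6
      _ = I * om := h1.symm
      _ ≤ I * ((k + 2) * (k + 4)) := Nat.mul_le_mul_left _ h2
  have h8 : ((k + 3) ^ 2 + 1) * (k + 4) ≤ I := by
    have : (k + 2) * (k + 4) * (((k + 3) ^ 2 + 1) * (k + 4)) ≤ (k + 2) * (k + 4) * I := by
      calc (k + 2) * (k + 4) * (((k + 3) ^ 2 + 1) * (k + 4)) = (k + 2) * (k + 4) * ((k + 3) ^ 2 + 1) * (k + 4) := by ring
        _ ≤ I * ((k + 2) * (k + 4)) := h7
        _ = (k + 2) * (k + 4) * I := by ring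
    exact Nat.le_of_mul_le_mul_left this (by positivity)
  have h9 : (k + 2) * (((k + 3) ^ 2 + 1) * (k + 4)) ≤ (k + 2) * I := Nat.mul_le_mul_left _ h8
  have e4 : (k + 2) * (((k + 3) ^ 2 + 1) * (k + 4)) + 1 = (k + 3) ^ 4 := by ring
  omega

end Cfsg.Agent.Lib.MinSp.Numbers
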