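import Cfsg.Agent.Lib.MinSp.CaseBa
import Cfsg.Agent.Lib.MinSp.Numbers

/-!
# Minimal index of `PSp`: Case B

If no transvection group fixes a point of the transitive `G`-set `X`, then `X` is large.
-/

set_option autoImplicit false

namespace Cfsg.Agent.Lib.MinSp.CaseB

open Matrix Cfsg Cfsg.Agent.Lib.Classical.SympForm Cfsg.Agent.Lib.PresSp.Vec Cfsg.Agent.Lib.MinSp.Basic
  Cfsg.Agent.Lib.MinSp.Perp Cfsg.Agent.Lib.MinSp.Count Cfsg.Agent.Lib.MinSp.Cover Cfsg.Agent.Lib.MinSp.Squares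
  Cfsg.Agent.Lib.MinSp.CaseBa Cfsg.Agent.Lib.MinSp.Numbers

/-- The commutator is not changed by commuting factors. -/
lemma comm_central {G : Type*} [Group G] {t₁ t₂ a b : G} (h1 : Commute t₁ a) (h2 : Commute t₁ b) (h3 : Commute t₂ a)
    (h4 : Commute t₂ b) (h5 : Commute t₁ t₂) :
    (t₁ * a) * (t₂ * b) * (t₁ * a)⁻¹ * (t₂ * b)⁻¹ = a * b * a⁻¹ * b⁻¹ := by
  have c1 : Commute t₁ (a * b * a⁻¹ * b⁻¹) := ((h1.mul_right h2).mul_right h1.inv_right).mul_right h2.inv_right
  have c2 : Commute t₂ (a * b * a⁻¹ * b⁻¹) := ((h3.mul_right h4).mul_right h3.inv_right).mul_right h4.inv_right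
  have e1 : t₁ * a * (t₂ * b) = t₁ * t₂ * (a * b) := by
    calc t₁ * a * (t₂ * b) = t₁ * (a * t₂) * b := by group
      _ = t₁ * (t₂ * a) * b := by rw [h3.eq]
      _ = t₁ * t₂ * (a * b) := by group
  have e2 : t₂ * b * (t₁ * a) = t₂ * t₁ * (b * a) := by
    calc t₂ * b * (t₁ * a) = t₂ * (b * t₁) * a := by group
      _ = t₂ * (t₁ * b) * a := by rw [h2.eq]
      _ = t₂ * t₁ * (b * a) := by group
  rw [mul_inv_eq_iff_eq_mul, mul_inv_eq_iff_eq_mul, e1, mul_assoc (a * b * a⁻¹ * b⁻¹), e2, ← mul_assoc (a * b * a⁻¹ * b⁻¹),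
    ((c2.mul_left c1).eq).symm, h5.eq, mul_assoc (t₂ * t₁)]
  congr 1
  group

/-- A fixed point of an element of prime order. -/
lemma exists_fixed {G X : Type*} [Group G] [MulAction G X] [Finite X] {O : Set X} {h : G} {r : ℕ} [Fact r.Prime]
    (hr : h ^ r = 1) (hO : ∀ z ∈ O, h • z ∈ O) (hnd : ¬ r ∣ Nat.card O) : ∃ z ∈ O, h • z = z := by
  classical
  let π₀ : O → O := fun z => ⟨h • z.1, hO z.1 z.2⟩
  have hinj : Function.Injective π₀ := fun a b hab => Subtype.ext (smul_left_cancel h (congrArg Subtype.val hab))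
  let π : Equiv.Perm O := Equiv.ofBijective π₀ (Finite.injective_iff_bijective.1 hinj)
  have hπ : ∀ (k : ℕ) (z : O), ((π ^ k) z).1 = h ^ k • z.1 := by
    intro k
    induction k with
    | zero =>
      intro z
      simp
    | succ k ih =>
      intro z
      rw [pow_succ', Equiv.Perm.mul_apply, pow_succ', mul_smul, ← ih]
      rfl
  have hπr : π ^ r = 1 := by
    ext z
    rw [hπ, hr, one_smul]
    rfl
  have hP : IsPGroup r (Subgroup.zpowers π) := by
    rintro ⟨g, k, rfl⟩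
    refine ⟨1, ?_⟩
    apply Subtype.ext
    simp only [pow_one, SubgroupClass.coe_pow, OneMemClass.coe_one]
    rw [← zpow_natCast, zpow_comm, zpow_natCast, hπr, _root_.one_zpow]
  obtain ⟨z, hz⟩ := hP.nonempty_fixed_point_of_prime_not_dvd_card O hnd
  refine ⟨z.1, z.2, ?_⟩
  have := hz ⟨π, Subgroup.mem_zpowers π⟩
  exact congrArg Subtype.val this

variable {m : ℕ} {F : Type*} [Field F] {X : Type*} [MulAction (Spg m F) X]

local notation "⟪" x ", " y "⟫" => sympForm m F x y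

/-- The element `c₀`. -/
lemma exists_c0 [Fintype F] (hq : 3 ≤ Fintype.card F) (R : AddSubgroup F) (hR : (2 : F) = 0 → R = ⊥) :
    ∃ c₀ : F, c₀ ≠ 0 ∧ c₀ ≠ 1 ∧ ∃ r : ℕ, r.Prime ∧ ¬ r ∣ Fintype.card F ∧ c₀ ^ r = 1 ∧
      (fun a => c₀ ^ 2 * a) '' (R : Set F) = R := by
  classical
  by_cases h2 : (2 : F) = 0
  · have hR0 := hR h2
    have hq1 : Fintype.card F - 1 ≠ 1 := by
      have : ringChar F = 2 := by
        have : CharP F 2 := CharTwo.of_one_ne_zero_of_two_eq_zero one_ne_zero h2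
        exact ringChar.eq F 2
      have h3 := FiniteField.even_card_iff_char_two.1 this
      omega
    obtain ⟨r, hr, hrd⟩ := Nat.exists_prime_and_dvd hq1
    haveI : Fact r.Prime := ⟨hr⟩
    have hcard : Nat.card Fˣ = Fintype.card F - 1 := by
      rw [Nat.card_eq_fintype_card, Fintype.card_units]
    obtain ⟨c, hc⟩ := exists_prime_orderOf_dvd_card' (G := Fˣ) r (by rw [hcard]; exact hrd)
    have hc1 : c ≠ 1 := by
      rintro rfl
      rw [orderOf_one] at hc
      exact hr.one_lt.ne hc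
    refine ⟨c, c.ne_zero, fun h => hc1 (Units.ext h), r, hr, ?_, ?_, ?_⟩
    · intro hd
      have h4 : r ∣ 1 := by
        have := Nat.dvd_sub hd hrd
        have e : Fintype.card F - (Fintype.card F - 1) = 1 := by omega
        rwa [e] at this
      exact hr.one_lt.ne' (Nat.dvd_one.1 h4)
    · have := pow_orderOf_eq_one c
      rw [hc] at this
      have h5 := congrArg Units.val this
      simpa using h5
    · subst hR0
      ext a
      simp only [AddSubgroup.coe_bot, Set.mem_image, Set.mem_singleton_iff]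
      constructor
      · rintro ⟨b, rfl, rfl⟩
        simp
      · rintro rfl
        exact ⟨0, rfl, by simp⟩
  · refine ⟨-1, neg_ne_zero.2 one_ne_zero, ?_, 2, Nat.prime_two, ?_, by norm_num, ?_⟩
    · intro h
      apply h2
      linear_combination -h
    · have hc : ringChar F ≠ 2 := by
        intro h
        apply h2
        have : CharP F 2 := h ▸ ringChar.charP F
        exact CharTwo.two_eq_zero
      have := FiniteField.odd_card_of_char_ne_two hc
      omega
    · simp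

/-- The key computation in step (c). -/
lemma key_step {v w : VV m F} (hvw : ⟪v, w⟫ = 1) {x₀ : X} {c₀ : F} (hc₀ : c₀ ≠ 0) (hc₁ : c₀ ≠ 1)
    (hfix : dd hvw hc₀ • x₀ = x₀) (hN : ∀ y ∈ Ns v w x₀, ∀ κ : F, κ • y ∈ Ns v w x₀) {τ : Spg m F}
    (hτv : τ.1 *ᵥ v = v) (hτw : τ.1 *ᵥ w = w) {y : VV m F} (hy : y ∈ Ee v w) {a : F} (hτ : τ • x₀ = Sq v y a • x₀) :
    ∃ e : F, (tS v e * τ) • x₀ = x₀ := by
  have hv0 : ⟪v, y⟫ = 0 := fm_comm0 hy.1
  have hv1 : ⟪v, -y⟫ = 0 := by rw [fm_neg_right, hv0, neg_zero]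
  set h := dd hvw hc₀ with hh
  have hcomm : h * τ = τ * h := dd_comm hvw hc₀ hτv hτw
  -- the element `g`
  have hg : ((Sq v y a)⁻¹ * τ) • x₀ = x₀ := by
    rw [mul_smul, hτ, inv_smul_smul]
  have hgi : ((Sq v y a)⁻¹ * τ)⁻¹ • x₀ = x₀ := inv_smul_eq_iff.2 hg.symm
  have hhi : h⁻¹ • x₀ = x₀ := inv_smul_eq_iff.2 hfix.symm
  have hc : (h * ((Sq v y a)⁻¹ * τ) * h⁻¹ * ((Sq v y a)⁻¹ * τ)⁻¹) • x₀ = x₀ := by
    rw [mul_smul, mul_smul, mul_smul, hgi, hhi, hg, hfix]
  have e1 : h * ((Sq v y a)⁻¹ * τ) * h⁻¹ * ((Sq v y a)⁻¹ * τ)⁻¹ = (h * (Sq v y a)⁻¹ * h⁻¹) * Sq v y a := by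
    have : τ * h⁻¹ = h⁻¹ * τ := by
      rw [mul_inv_eq_iff_eq_mul, mul_assoc, eq_inv_mul_iff_mul_eq, hcomm]
    calc h * ((Sq v y a)⁻¹ * τ) * h⁻¹ * ((Sq v y a)⁻¹ * τ)⁻¹ = h * (Sq v y a)⁻¹ * (τ * h⁻¹) * τ⁻¹ * Sq v y a := by group
      _ = (h * (Sq v y a)⁻¹ * h⁻¹) * Sq v y a := by rw [this]; group
  have e2 : h * (Sq v y a)⁻¹ * h⁻¹ = Sq v (c₀ • (-y)) (c₀ ^ 2 * (-a)) := by
    rw [Sq_inv hv0, Sq_conj h (-y) (-a) c₀ (dd_v hvw hc₀) hv1, dd_E hvw hc₀ ((Ee v w).neg_mem hy)]
  have hv2 : ⟪v, c₀ • (-y)⟫ = 0 := by rw [fm_smul_right, hv1, mul_zero]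
  rw [e1, e2, Sq_mul hv2 hv0] at hc
  have hmem : c₀ • (-y) + y ∈ Ns v w x₀ :=
    ⟨(Ee v w).add_mem ((Ee v w).smul_mem _ ((Ee v w).neg_mem hy)) hy, _, hc⟩
  have e3 : y = (1 - c₀)⁻¹ • (c₀ • (-y) + y) := by
    have h1c : 1 - c₀ ≠ 0 := sub_ne_zero.2 (Ne.symm hc₁)
    have : c₀ • (-y) + y = (1 - c₀) • y := by module
    rw [this, smul_smul, inv_mul_cancel₀ h1c, one_smul]
  have hyN : y ∈ Ns v w x₀ := by
    rw [e3]
    exact hN _ hmem _
  obtain ⟨-, a', ha'⟩ := hyN
  refine ⟨a' - a, ?_⟩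
  rw [mul_smul, hτ, ← mul_smul, tS_Sq hv0]
  rw [show a + (a' - a) = a' by ring]
  exact ha'

/-- The commutators of the stabiliser of `N` fix `x₀`. -/
lemma comm_step {v : VV m F} {x₀ : X} {τ₁ τ₂ : Spg m F} {e₁ e₂ : F} (h1 : τ₁.1 *ᵥ v = v) (h2 : τ₂.1 *ᵥ v = v)
    (hf1 : (tS v e₁ * τ₁) • x₀ = x₀) (hf2 : (tS v e₂ * τ₂) • x₀ = x₀) :
    (τ₁ * τ₂ * τ₁⁻¹ * τ₂⁻¹) • x₀ = x₀ := by
  have hc : ∀ (τ : Spg m F) (e : F), τ.1 *ᵥ v = v → Commute (tS v e) τ := by
    intro τ e hτ
    have := tS_conj τ v e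
    rw [hτ, mul_inv_eq_iff_eq_mul] at this
    exact this.symm
  have e := comm_central (hc τ₁ e₁ h1) (hc τ₂ e₁ h2) (hc τ₁ e₂ h1) (hc τ₂ e₂ h2)
    ((comm_tt (fm_self v) e₁ e₂))
  rw [← e, mul_smul, mul_smul, mul_smul, inv_smul_eq_iff.2 hf2.symm, inv_smul_eq_iff.2 hf1.symm, hf2, hf1]

section main

variable [Fintype F] {p : ℕ} [Fact p.Prime] [CharP F p]

/-- An element of norm one scaling. -/
lemma exists_c1 (hq : 4 ≤ Fintype.card F) : ∃ c : F, c ≠ 0 ∧ c ^ 2 ≠ 1 := by
  classical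
  by_contra hcon
  push Not at hcon
  have h1 : (Finset.univ : Finset F) ⊆ {0, 1, -1} := by
    intro x _
    by_cases hx : x = 0
    · simp [hx]
    · have := hcon x hx
      have h2 : (x - 1) * (x + 1) = 0 := by linear_combination this
      rcases mul_eq_zero.1 h2 with h | h
      · simp [sub_eq_zero.1 h]
      · have : x = -1 := by linear_combination h
        simp [this]
  have h2 := Finset.card_le_card h1
  have h3 : ({0, 1, -1} : Finset F).card ≤ 3 := Finset.card_le_three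
  rw [Finset.card_univ] at h2
  omega

/-- A hyperbolic pair orthogonal to two hyperbolic pairs, for `m ≥ 3`. -/
lemma exists_perp_hyp {v w u u' : VV m F} (hvw : ⟪v, w⟫ = 1) (huu : ⟪u, u'⟫ = 1) (hu : u ∈ Ee v w) (hu' : u' ∈ Ee v w)
    (hm : 3 ≤ m) : ∃ y y' : VV m F, y ∈ Ee v w ∧ y' ∈ Ee v w ∧ y ∈ Ee u u' ∧ y' ∈ Ee u u' ∧ ⟪y, y'⟫ = 1 := by
  classical
  have hpr : ∀ z ∈ Ee v w, pr u u' z ∈ Ee v w := by
    intro z hz
    exact (Ee v w).add_mem ((Ee v w).sub_mem hz ((Ee v w).smul_mem _ hu)) ((Ee v w).smul_mem _ hu')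
  have hex : ∃ z ∈ Ee v w, pr u u' z ≠ 0 := by
    by_contra hcon
    push Not at hcon
    have hinj : Function.Injective (fun z : Ee v w => ((⟪z.1, u'⟫, ⟪z.1, u⟫) : F × F)) := by
      rintro ⟨a, ha⟩ ⟨b, hb⟩ hab
      simp only [Prod.mk.injEq] at hab
      apply Subtype.ext
      have e1 := hcon a ha
      have e2 := hcon b hb
      simp only [pr] at e1 e2
      simp only
      rw [hab.1, hab.2] at e1
      have h1 : a = ⟪b, u'⟫ • u - ⟪b, u⟫ • u' := by
        have : a - ⟪b, u'⟫ • u + ⟪b, u⟫ • u' = 0 := e1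
        rw [sub_add_eq_add_sub, sub_eq_zero] at this
        rw [eq_sub_iff_add_eq]
        exact this
      have h2 : b = ⟪b, u'⟫ • u - ⟪b, u⟫ • u' := by
        have : b - ⟪b, u'⟫ • u + ⟪b, u⟫ • u' = 0 := e2
        rw [sub_add_eq_add_sub, sub_eq_zero] at this
        rw [eq_sub_iff_add_eq]
        exact this
      rw [h1, ← h2]
    have h1 := Nat.card_le_card_of_injective _ hinj
    rw [Nat.card_prod, Nat.card_eq_fintype_card (α := F), card_Ee hvw (by omega)] at h1
    have hq : 2 ≤ Fintype.card F := Fintype.one_lt_card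
    have h2 : Fintype.card F ^ 3 ≤ Fintype.card F ^ (2 * m - 2) := Nat.pow_le_pow_right (by omega) (by omega)
    have h3 : Fintype.card F * Fintype.card F < Fintype.card F ^ 3 := by nlinarith [pow_succ (Fintype.card F) 2]
    omega
  obtain ⟨z, hz, hz0⟩ := hex
  obtain ⟨z', hz', hzz⟩ := exists_Ee_hyp hvw (hpr z hz) hz0
  refine ⟨pr u u' z, pr u u' z', hpr z hz, hpr z' hz', pr_mem huu z, pr_mem huu z', ?_⟩
  rw [fm_pr (pr_mem huu z), hzz]

set_option maxHeartbeats 4000000 in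
/-- **Case B**: the core contradiction. -/
theorem caseB_core [Finite X] {l : F →+ ZMod p} (hl : l ≠ 0) (hq : 3 ≤ Fintype.card F) (hm : 2 ≤ m)
    (hexc : ¬ (m = 2 ∧ Fintype.card F = 3))
    (hB : ∀ (x' : X) (u : VV m F), u ≠ 0 → ¬ ∀ c, tS u c • x' = x') {v w : VV m F} (hvw : ⟪v, w⟫ = 1)
    (hX : (Fintype.card F - 1) * Nat.card X + Fintype.card F ≤ Fintype.card F ^ 2 * Nat.card (Ee v w))
    (x : X) (hNE : ∃ y ∈ Ee v w, y ∉ Ns v w x) : False := by
  classical
  have he1 : Nat.card (Ee v w) = Fintype.card F ^ (2 * m - 2) := card_Ee hvw (by omega)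
  have he2 : Fintype.card F ^ 2 ≤ Nat.card (Ee v w) := by
    rw [he1]
    exact Nat.pow_le_pow_right (by omega) (by omega)
  have he0 : 0 < Nat.card (Ee v w) := Nat.card_pos
  set R := Rs v x with hRdef
  set N := Ns v w x with hNdef
  set A := perpE l v w N with hAdef
  have hN : ∀ y ∈ N, y ∈ Ee v w := fun y hy => hy.1
  have hA : ∀ y ∈ A, y ∈ Ee v w := fun y hy => hy.1
  have hperp : perpE l v w A = N := perpE_perpE hl hvw N hN
  have hcount := count_orbit hl hvw x
  rw [← hRdef, ← hNdef, ← hAdef] at hcount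
  have hRτ := card_perpF hl R
  have hNt := card_perpE hl hvw N hN
  rw [← hAdef] at hNt
  -- `A ≠ 0`
  have hA0 : ∃ u ∈ A, u ≠ 0 := by
    by_contra hcon
    push Not at hcon
    obtain ⟨y, hy, hyN⟩ := hNE
    apply hyN
    rw [← hperp]
    refine ⟨hy, fun z hz => ?_⟩
    rw [hcon z hz, fm_zero_right, map_zero]
  obtain ⟨u, hu, hu0⟩ := hA0
  -- `R ≠ F`
  have hR0 : ∃ ρ ∈ perpF l R, ρ ≠ 0 := by
    by_contra hcon
    push Not at hcon
    apply hB x v (ne_zero_of_hyp hvw)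
    have h1 : Nat.card (perpF l R) = 1 := by
      rw [Nat.card_eq_one_iff_unique]
      refine ⟨⟨fun a b => Subtype.ext ?_⟩, ⟨⟨0, (perpF l R).zero_mem⟩⟩⟩
      rw [hcon _ a.2, hcon _ b.2]
    rw [h1, mul_one] at hRτ
    have h2 : R = ⊤ := AddSubgroup.eq_top_of_card_eq R (by rw [hRτ, Nat.card_eq_fintype_card])
    intro c
    have : c ∈ R := by rw [h2]; trivial
    exact this
  obtain ⟨ρ, hρ, hρ0⟩ := hR0
  have hsR := coverF R hρ hρ0
  have hsA := cover_one hvw A hA hu hu0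
  set τ := Nat.card (perpF l R) with hτdef
  set t := Nat.card A with htdef
  set sR := Nat.card (Rconj (R : Set F)) with hsRdef
  set sA := Nat.card (Aconj v w (A : Set (VV m F))) with hsAdef
  have hsR1 : 1 ≤ sR := by
    haveI : Nonempty (Rconj (R : Set F)) := ⟨⟨_, self_mem_Rconj _⟩⟩
    exact Nat.card_pos
  have hsA1 : 1 ≤ sA := by
    haveI : Nonempty (Aconj v w (A : Set (VV m F))) := ⟨⟨_, self_mem_Aconj _ _ _⟩⟩
    exact Nat.card_pos
  have ht1 : 1 ≤ t := Nat.card_pos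
  have hτ1 : 1 ≤ τ := Nat.card_pos
  have hcount' : (sA * t) * (τ * sR) ≤ Nat.card X := by
    calc (sA * t) * (τ * sR) = sR * sA * (τ * t) := by ring
      _ ≤ _ := hcount
  have ha : Nat.card (Ee v w) ≤ sA * t := by
    obtain ⟨T, hT⟩ : ∃ T, t = T + 1 := ⟨t - 1, by omega⟩
    rw [hT] at hsA ⊢
    have e3 : T + 1 - 1 = T := by omega
    rw [e3] at hsA
    rw [mul_add, mul_one]
    omega
  have hRcard : 1 ≤ Nat.card R := Nat.card_pos
  -- the bound for `b`
  have hbnd : Fintype.card F + 2 ≤ 2 * (τ * sR) ∧ ((2 : F) = 0 → R = ⊥ ∧ τ = Fintype.card F) := by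
    by_cases h2 : (2 : F) = 0
    · have hσ := card_Sqs_two h2
      have hR1 : Nat.card R = 1 := by
        by_contra hne
        have h3 : 2 ≤ Nat.card R := by omega
        exact num1 hq he0 hX ha (num4 hRτ hsR hσ hq h3) hcount'
      have hRbot : R = ⊥ := AddSubgroup.eq_bot_of_card_eq R hR1
      have hτq : τ = Fintype.card F := by
        rw [hR1, one_mul] at hRτ
        exact hRτ
      refine ⟨?_, fun _ => ⟨hRbot, hτq⟩⟩
      rw [hτq]
      exact num6 hq hsR1
    · have hσ := card_Sqs_ge (F := F)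
      refine ⟨?_, fun h => absurd h h2⟩
      by_cases hR1 : Nat.card R = 1
      · have hτq : τ = Fintype.card F := by
          rw [hR1, one_mul] at hRτ
          exact hRτ
        rw [hτq]
        exact num6 hq hsR1
      · have h3 : 3 ≤ Nat.card R := by
          have hc : ringChar F ≠ 2 := by
            intro h
            apply h2
            have : CharP F 2 := h ▸ ringChar.charP F
            exact CharTwo.two_eq_zero
          have h4 := FiniteField.odd_card_of_char_ne_two hc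
          have h5 : Nat.card R ∣ Fintype.card F := ⟨τ, hRτ.symm⟩
          have h6 : Nat.card R % 2 = 1 := by
            obtain ⟨k, hk⟩ := h5
            by_contra h7
            have h8 : Nat.card R % 2 = 0 := by omega
            have h9 : Fintype.card F % 2 = 0 := by
              rw [hk, Nat.mul_mod, h8]
              simp
            omega
          omega
        exact num5 hRτ hsR hσ hq h3 hsR1
  obtain ⟨hb, hb2⟩ := hbnd
  -- isotropy in odd characteristic
  have hiso : (2 : F) ≠ 0 → Nat.card (Ee v w) ≤ t * t := by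
    intro h2
    have hη : 2 * ρ ≠ 0 := mul_ne_zero h2 hρ0
    have hinj : Function.Injective (fun y : N => (⟨(2 * ρ) • y.1, ⟨(Ee v w).smul_mem _ y.2.1, fun y' hy' => by
        rw [fm_smul_left]
        have h3 := hρ _ (two_mem_Rs hy' y.2)
        rwa [show ρ * (2 * ⟪y.1, y'⟫) = 2 * ρ * ⟪y.1, y'⟫ by ring] at h3⟩⟩ : A)) := by
      rintro ⟨a, ha⟩ ⟨b, hb⟩ hab
      apply Subtype.ext
      have := congrArg Subtype.val hab
      exact smul_right_injective _ hη this
    have h4 := Nat.card_le_card_of_injective _ hinj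
    rw [← hNt]
    exact Nat.mul_le_mul_right _ h4
  -- the shape of `A`
  have hshape : (∀ y ∈ Ee v w, y ∈ A) ∨ (∀ z, z ∈ A ↔ ∃ κ : F, z = κ • u) := by
    by_cases hAprop : ∃ y ∈ Ee v w, y ∉ A
    · right
      by_cases hind : ∃ u' ∈ A, ∀ κ : F, u' ≠ κ • u
      · exfalso
        obtain ⟨u', hu', hind'⟩ := hind
        have h2 := cover_two hq hvw A hA hAprop hu hu' hu0 hind'
        have h3 : sA * (t - 1) ≤ sA * t := Nat.mul_le_mul_left _ (by omega)
        exact num2 hq he2 hX (h2.trans h3) hb hcount'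
      · push Not at hind
        -- the additive subgroup of `F`
        let AF : AddSubgroup F :=
          { carrier := {κ | κ • u ∈ A}
            add_mem' := fun {a b} ha hb => by
              change (a + b) • u ∈ A
              rw [add_smul]
              exact A.add_mem ha hb
            zero_mem' := by
              change (0 : F) • u ∈ A
              rw [zero_smul]
              exact A.zero_mem
            neg_mem' := fun {a} ha => by
              change (-a) • u ∈ A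
              rw [neg_smul]
              exact A.neg_mem ha }
        have hAF : Nat.card AF = t := by
          apply Nat.card_congr
          refine Equiv.ofBijective (fun κ => ⟨κ.1 • u, κ.2⟩) ⟨?_, ?_⟩
          · rintro ⟨a, ha⟩ ⟨b, hb⟩ hab
            apply Subtype.ext
            exact smul_left_injective F hu0 (congrArg Subtype.val hab)
          · rintro ⟨z, hz⟩
            obtain ⟨κ, rfl⟩ := hind z hz
            exact ⟨⟨κ, hz⟩, rfl⟩
        have hdvd : t ∣ Fintype.card F := by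
          rw [← hAF, ← Nat.card_eq_fintype_card]
          exact AddSubgroup.card_addSubgroup_dvd_card AF
        have htq : t = Fintype.card F := by
          by_contra hne
          obtain ⟨k, hk⟩ := hdvd
          have hk2 : 2 ≤ k := by
            rcases k with _ | _ | k
            · omega
            · simp at hk
              omega
            · omega
          have h2t : 2 * t ≤ Fintype.card F := by
            rw [hk, mul_comm]
            exact Nat.mul_le_mul_left _ hk2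
          by_cases h2 : (2 : F) = 0
          · obtain ⟨-, hτq⟩ := hb2 h2
            have hc : Fintype.card F * (t * sA) ≤ Nat.card X := by
              refine le_trans ?_ hcount'
              rw [hτq]
              calc Fintype.card F * (t * sA) = (sA * t) * (Fintype.card F * 1) := by ring
                _ ≤ (sA * t) * (Fintype.card F * sR) :=
                  Nat.mul_le_mul_left _ (Nat.mul_le_mul_left _ hsR1)
            exact num3 hq he2 hX hsA h2t ht1 hc
          · have h3 := hiso h2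
            have h4 : Fintype.card F * Fintype.card F ≤ t * t := by
              rw [← sq]
              exact he2.trans h3
            have h5 : t < Fintype.card F := by omega
            exact absurd h4 (not_le.2 (Nat.mul_self_lt_mul_self h5))
        have hAFtop : AF = ⊤ := AddSubgroup.eq_top_of_card_eq AF (by rw [hAF, htq, Nat.card_eq_fintype_card])
        intro z
        constructor
        · exact hind z
        · rintro ⟨κ, rfl⟩
          have : κ ∈ AF := by rw [hAFtop]; trivial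
          exact this
    · left
      push Not at hAprop
      exact hAprop
  -- `A` is closed under scalars
  have hAsc : ∀ z ∈ A, ∀ κ : F, κ • z ∈ A := by
    intro z hz κ
    rcases hshape with h | h
    · exact h _ ((Ee v w).smul_mem κ (hA z hz))
    · obtain ⟨κ', rfl⟩ := (h z).1 hz
      rw [smul_smul]
      exact (h _).2 ⟨_, rfl⟩
  have hNsc : ∀ y ∈ N, ∀ κ : F, κ • y ∈ N := by
    intro y hy κ
    rw [← hperp] at hy ⊢
    refine ⟨(Ee v w).smul_mem κ hy.1, fun z hz => ?_⟩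
    rw [fm_smul_left, ← fm_smul_right]
    exact hy.2 _ (hAsc z hz κ)
  -- the Levi elements stabilising `A` stabilise `N`
  have hτN : ∀ τ : Spg m F, τ.1 *ᵥ v = v → τ.1 *ᵥ w = w → (fun y => τ.1 *ᵥ y) '' (A : Set (VV m F)) = A →
      (fun y => τ.1 *ᵥ y) '' (N : Set (VV m F)) = N := by
    intro τ h1 h2 h3
    rw [← hperp, image_perpE h1 h2, h3]
    rfl
  -- uniqueness of the orbit
  have hFib : ∀ z : X, Rs v z = R → Ns v w z = N → z ∈ Orb v w x := by
    intro z h1 h2
    by_contra hz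
    have h3 := count_two_orbits hl hvw x z hz h1 h2
    rw [← hRdef, ← hNdef, ← hAdef] at h3
    refine num1 hq he0 hX ha hb (le_trans ?_ h3)
    apply le_of_eq
    ring
  -- the element `c₀`
  obtain ⟨c₀, hc₀, hc₁, r, hr, hrq, hc₀r, hc₀R⟩ := exists_c0 hq R (fun h => (hb2 h).1)
  haveI : Fact r.Prime := ⟨hr⟩
  set h := dd hvw hc₀ with hh
  have hhr : h ^ r = 1 := by
    rw [hh, dd_pow]
    apply sp_ext
    intro z
    rw [one_act, dd_act]
    simp [hc₀r]
  have hOrbh : ∀ z ∈ Orb v w x, h • z ∈ Orb v w x := by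
    intro z hz
    apply hFib
    · apply SetLike.coe_injective
      rw [Rs_image hc₀ (dd_v hvw hc₀), Rs_Orb hz, ← hRdef, hc₀R]
    · apply SetLike.coe_injective
      rw [Ns_image hc₀ (dd_v hvw hc₀) (dd_w hvw hc₀), Ns_Orb hz, ← hNdef]
      ext b
      constructor
      · rintro ⟨y, hy, rfl⟩
        simp only
        rw [dd_E hvw hc₀ (hN y hy)]
        exact hNsc y hy c₀
      · intro hb'
        refine ⟨c₀⁻¹ • b, hNsc b hb' _, ?_⟩
        simp only
        rw [dd_E hvw hc₀ ((Ee v w).smul_mem _ (hN b hb')), smul_smul, mul_inv_cancel₀ hc₀, one_smul]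
  have hnd : ¬ r ∣ Nat.card (Orb v w x) := by
    intro hd
    have h1 := card_Orb hvw x
    have h2 : r ∣ Fintype.card F * Nat.card (Ee v w) := by
      rw [← h1]
      exact Dvd.dvd.mul_right hd _
    rw [he1] at h2
    rcases (Nat.Prime.dvd_mul hr).1 h2 with h3 | h3
    · exact hrq h3
    · exact hrq (hr.dvd_of_dvd_pow h3)
  obtain ⟨x₀, hx₀, hx₀fix⟩ := exists_fixed hhr hOrbh hnd
  have hRx₀ : Rs v x₀ = R := Rs_Orb hx₀
  have hNx₀ : Ns v w x₀ = N := Ns_Orb hx₀
  have hOx₀ : Orb v w x₀ = Orb v w x := MulAction.orbit_eq_iff.2 hx₀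
  -- elements of the Levi factor stabilising `N`
  have hkey : ∀ τ : Spg m F, τ.1 *ᵥ v = v → τ.1 *ᵥ w = w → (fun y => τ.1 *ᵥ y) '' (A : Set (VV m F)) = A →
      ∃ e : F, (tS v e * τ) • x₀ = x₀ := by
    intro τ h1 h2 h3
    have h4 : τ • x₀ ∈ Orb v w x₀ := by
      rw [hOx₀]
      apply hFib
      · apply SetLike.coe_injective
        rw [Rs_image (c := 1) one_ne_zero (by rw [one_smul, h1]), hRx₀]
        simp
      · apply SetLike.coe_injective
        rw [Ns_image (c := 1) one_ne_zero (by rw [one_smul, h1]) (by rw [inv_one, one_smul, h2]), hNx₀]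
        simp only [one_smul]
        exact hτN τ h1 h2 h3
    obtain ⟨y, hy, a, ha'⟩ := mem_Orb.1 h4
    exact key_step hvw hc₀ hc₁ hx₀fix (by rw [hNx₀]; exact hNsc) h1 h2 hy ha'
  -- commutators
  have hcomm : ∀ τ₁ τ₂ : Spg m F, τ₁.1 *ᵥ v = v → τ₁.1 *ᵥ w = w → (fun y => τ₁.1 *ᵥ y) '' (A : Set (VV m F)) = A →
      τ₂.1 *ᵥ v = v → τ₂.1 *ᵥ w = w → (fun y => τ₂.1 *ᵥ y) '' (A : Set (VV m F)) = A →
      (τ₁ * τ₂ * τ₁⁻¹ * τ₂⁻¹) • x₀ = x₀ := by
    intro τ₁ τ₂ h1 h2 h3 h4 h5 h6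
    obtain ⟨e₁, he₁⟩ := hkey τ₁ h1 h2 h3
    obtain ⟨e₂, he₂⟩ := hkey τ₂ h4 h5 h6
    exact comm_step h1 h4 he₁ he₂
  -- the vector `u` and its Levi stabiliser
  have huE := hA u hu
  obtain ⟨u', hu', huu⟩ := exists_Ee_hyp hvw huE hu0
  have hscale : ∀ τ : Spg m F, τ.1 *ᵥ v = v → τ.1 *ᵥ w = w → ∀ κ : F, κ ≠ 0 → τ.1 *ᵥ u = κ • u →
      (fun y => τ.1 *ᵥ y) '' (A : Set (VV m F)) = A := by
    intro τ h1 h2 κ hκ h3
    have hv' : τ.1 *ᵥ v = (1 : F) • v := by rw [one_smul, h1]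
    have hw' : τ.1 *ᵥ w = (1 : F)⁻¹ • w := by rw [inv_one, one_smul, h2]
    have hiv : (τ⁻¹).1 *ᵥ v = (1 : F) • v := by
      have := inv_levi (one_ne_zero) hv'
      rwa [inv_one] at this
    have hiw : (τ⁻¹).1 *ᵥ w = (1 : F)⁻¹ • w := inv_levi (c := (1 : F)) one_ne_zero (by rw [one_smul, h2])
    rcases hshape with hs | hs
    · ext z
      constructor
      · rintro ⟨y, hy, rfl⟩
        exact hs _ (levi_E one_ne_zero hv' hw' (hA y hy))
      · intro hz
        refine ⟨(τ⁻¹).1 *ᵥ z, hs _ (levi_E one_ne_zero hiv hiw (hA z hz)), act_inv_act τ z⟩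
    · ext z
      constructor
      · rintro ⟨y, hy, rfl⟩
        obtain ⟨κ', rfl⟩ := (hs y).1 hy
        refine (hs _).2 ⟨κ' * κ, ?_⟩
        simp only
        rw [mulVec_smul, h3, smul_smul]
      · intro hz
        obtain ⟨κ', rfl⟩ := (hs z).1 hz
        refine ⟨(κ' * κ⁻¹) • u, (hs _).2 ⟨_, rfl⟩, ?_⟩
        simp only
        rw [mulVec_smul, h3, smul_smul, mul_assoc, inv_mul_cancel₀ hκ, mul_one]
  -- conclusion
  apply hB x₀ u hu0
  by_cases hq4 : 4 ≤ Fintype.card F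
  · obtain ⟨c₁, hc₁0, hc₁2⟩ := exists_c1 hq4
    obtain ⟨g, hg1, hg2, hg3⟩ := levi_scale hvw huu huE hu' hc₁0
    have hgA := hscale g hg1 hg2 c₁ hc₁0 hg3
    have hd : c₁ ^ 2 - 1 ≠ 0 := sub_ne_zero.2 hc₁2
    intro c
    have e1 : ⟪v, u⟫ = 0 := fm_comm0 huE.1
    have e2 : ⟪w, u⟫ = 0 := fm_comm0 huE.2
    have htv : (tS u (c / (c₁ ^ 2 - 1))).1 *ᵥ v = v := by rw [tS_act, e1]; simp
    have htw : (tS u (c / (c₁ ^ 2 - 1))).1 *ᵥ w = w := by rw [tS_act, e2]; simp
    have htu : (tS u (c / (c₁ ^ 2 - 1))).1 *ᵥ u = (1 : F) • u := by rw [tS_act, fm_self]; simp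
    have htA := hscale _ htv htw 1 one_ne_zero htu
    have h1 := hcomm g _ hg1 hg2 hgA htv htw htA
    have e3 : g * tS u (c / (c₁ ^ 2 - 1)) * g⁻¹ * (tS u (c / (c₁ ^ 2 - 1)))⁻¹ = tS u c := by
      rw [tS_conj, hg3, tS_smul, ← tS_neg, ← tS_add]
      congr 1
      field_simp
      ring
    rw [e3] at h1
    exact h1
  · have hq3 : Fintype.card F = 3 := by omega
    have hm3 : 3 ≤ m := by
      by_contra h
      exact hexc ⟨by omega, hq3⟩
    have h2 : (2 : F) ≠ 0 := by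
      intro h
      have : ringChar F = 2 := by
        have : CharP F 2 := CharTwo.of_one_ne_zero_of_two_eq_zero one_ne_zero h
        exact ringChar.eq F 2
      have h3 := FiniteField.even_card_iff_char_two.1 this
      omega
    have hAE : ∀ y ∈ Ee v w, y ∈ A := by
      rcases hshape with hs | hs
      · exact hs
      · exfalso
        have htq : t ≤ 3 := by
          rw [← hq3, ← Nat.card_eq_fintype_card]
          refine Nat.card_le_card_of_surjective (fun κ : F => (⟨κ • u, (hs _).2 ⟨κ, rfl⟩⟩ : A)) ?_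
          rintro ⟨z, hz⟩
          obtain ⟨κ, rfl⟩ := (hs z).1 hz
          exact ⟨κ, rfl⟩
        have h3 := hiso h2
        have h4 : 3 ^ 4 ≤ Nat.card (Ee v w) := by
          rw [he1, hq3]
          exact Nat.pow_le_pow_right (by omega) (by omega)
        have h5 : t * t ≤ 3 * 3 := Nat.mul_le_mul htq htq
        omega
    have hallL : ∀ τ : Spg m F, τ.1 *ᵥ v = v → τ.1 *ᵥ w = w → (fun y => τ.1 *ᵥ y) '' (A : Set (VV m F)) = A := by
      intro τ h1 h3
      have hv' : τ.1 *ᵥ v = (1 : F) • v := by rw [one_smul, h1]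
      have hw' : τ.1 *ᵥ w = (1 : F)⁻¹ • w := by rw [inv_one, one_smul, h3]
      have hiv : (τ⁻¹).1 *ᵥ v = (1 : F) • v := by
        have := inv_levi (one_ne_zero) hv'
        rwa [inv_one] at this
      have hiw : (τ⁻¹).1 *ᵥ w = (1 : F)⁻¹ • w := inv_levi (c := (1 : F)) one_ne_zero (by rw [one_smul, h3])
      ext z
      constructor
      · rintro ⟨y, hy, rfl⟩
        exact hAE _ (levi_E one_ne_zero hv' hw' (hA y hy))
      · intro hz
        refine ⟨(τ⁻¹).1 *ᵥ z, hAE _ (levi_E one_ne_zero hiv hiw (hA z hz)), act_inv_act τ z⟩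
    obtain ⟨y, y', hy1, hy2, hy3, hy4, hyy⟩ := exists_perp_hyp hvw huu huE hu' hm3
    intro c
    -- the commutator of two root elements
    have e1 : ⟪u, y⟫ = 0 := fm_comm0 hy3.1
    set y₁ := (-((2 : F)⁻¹ * c)) • y' with hy₁
    have hy₁3 : y₁ ∈ Ee u u' := (Ee u u').smul_mem _ hy4
    have hy₁2 : y₁ ∈ Ee v w := (Ee v w).smul_mem _ hy2
    have e2 : ⟪u, y₁⟫ = 0 := fm_comm0 hy₁3.1
    have hfix : ∀ z ∈ Ee v w, z ∈ Ee u u' → ∀ a : F, (Sq u z a).1 *ᵥ v = v ∧ (Sq u z a).1 *ᵥ w = w := by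
      intro z hz hz' a
      have h1 : ⟪u, z⟫ = 0 := fm_comm0 hz'.1
      constructor
      · rw [Sq_act h1, fm_comm0 huE.1, fm_comm0 hz.1]
        simp
      · rw [Sq_act h1, fm_comm0 huE.2, fm_comm0 hz.2]
        simp
    obtain ⟨a1, a2⟩ := hfix y hy1 hy3 0
    obtain ⟨a3, a4⟩ := hfix y₁ hy₁2 hy₁3 0
    have h1 := hcomm _ _ a1 a2 (hallL _ a1 a2) a3 a4 (hallL _ a3 a4)
    rw [Sq_conj_Sq e1 e2, Sq_inv e2, Sq_mul e2 (by rw [fm_neg_right, e2, neg_zero])] at h1
    have e3 : y₁ + -y₁ = 0 := add_neg_cancel y₁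
    rw [e3, Sq_zero_left] at h1
    have e4 : 0 + 2 * ⟪y₁, y⟫ + -0 + ⟪-y₁, y₁⟫ = c := by
      rw [fm_neg_left, fm_self, hy₁, fm_smul_left, fm_anti y y', hyy]
      field_simp
      ring
    rw [e4] at h1
    exact h1

end main

end Cfsg.Agent.Lib.MinSp.CaseB
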