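import Cfsg.Agent.Lib.MinSp.Squares

/-!
# Minimal index of `PSp`: Case B, step (a)

If no full transvection group fixes a given point, then some `Ns v w x` is a proper subgroup of `E`.
-/

set_option autoImplicit false

namespace Cfsg.Agent.Lib.MinSp.CaseBa

open Matrix Cfsg Cfsg.Agent.Lib.Classical.SympForm Cfsg.Agent.Lib.PresSp.Vec Cfsg.Agent.Lib.MinSp.Basic
  Cfsg.Agent.Lib.MinSp.Perp Cfsg.Agent.Lib.MinSp.Count Cfsg.Agent.Lib.MinSp.Cover

variable {m : ℕ} {F : Type*} [Field F] {X : Type*} [MulAction (Spg m F) X]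

local notation "⟪" x ", " y "⟫" => sympForm m F x y

/-- Scaling the centre of `Sq`. -/
lemma Sq_smul_left {c y : VV m F} (h : ⟪c, y⟫ = 0) (κ a : F) : Sq (κ • c) y a = Sq c (κ • y) (κ ^ 2 * a) := by
  have h1 : ⟪κ • c, y⟫ = 0 := by rw [fm_smul_left, h, mul_zero]
  have h2 : ⟪c, κ • y⟫ = 0 := by rw [fm_smul_right, h, mul_zero]
  apply sp_ext
  intro x
  rw [Sq_act h1, Sq_act h2]
  simp only [fm_smul_right]
  module

/-- Adding a multiple of the centre to the second argument of `Sq`. -/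
lemma Sq_add_self {u y : VV m F} (h : ⟪u, y⟫ = 0) (t α : F) : Sq u (t • u + y) α = Sq u y (α + 2 * t) := by
  have h1 : ⟪u, t • u + y⟫ = 0 := by rw [fm_add_right, fm_smul_right, fm_self, h]; ring
  apply sp_ext
  intro x
  rw [Sq_act h1, Sq_act h]
  simp only [fm_add_right, fm_smul_right]
  module

/-- Separation of two independent vectors. -/
lemma exists_sepV {u u' : VV m F} (hu0 : u ≠ 0) (hind : ∀ κ : F, u' ≠ κ • u) (s t : F) :
    ∃ y : VV m F, ⟪y, u⟫ = s ∧ ⟪y, u'⟫ = t := by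
  obtain ⟨a, hua⟩ := exists_hyp hu0
  set κ := ⟪u', a⟫ with hκ
  have hu''0 : u' - κ • u ≠ 0 := fun h => hind κ (sub_eq_zero.1 h)
  obtain ⟨b, hub⟩ := exists_hyp hu''0
  rw [fm_sub_left, fm_smul_left] at hub
  set β := ⟪u, b⟫ with hβ
  have hub' : ⟪u', b⟫ = 1 + κ * β := by rw [← hub]; ring
  refine ⟨(-s * (1 + κ * β) + t * β) • a + (s * κ - t) • b, ?_, ?_⟩
  · rw [fm_anti, fm_add_right, fm_smul_right, fm_smul_right, hua, ← hβ]
    ring
  · rw [fm_anti, fm_add_right, fm_smul_right, fm_smul_right, ← hκ, hub']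
    ring

section char_two

/-- The identity in characteristic two: conjugating `Sq u y b` by `Sq c u a`. -/
lemma step_two (h2 : (2 : F) = 0) {x : X} {c u y : VV m F} {a b : F} (h1 : ⟪u, c⟫ = 0) (hy : ⟪y, u⟫ = 0)
    (hca : Sq c u a • x = x) (hub : Sq u y b • x = x) :
    Sq u ((a * ⟪y, c⟫) • c) (a * ⟪y, c⟫ ^ 2) • x = x := by
  set t := ⟪y, c⟫ with ht
  have h1' : ⟪c, u⟫ = 0 := fm_comm0 h1
  have hy' : ⟪u, y⟫ = 0 := fm_comm0 hy
  have hgu : (Sq c u a).1 *ᵥ u = (1 : F) • u := by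
    rw [Sq_act h1', h1, fm_self]
    simp
  have hgy : (Sq c u a).1 *ᵥ y = y + t • u + (a * t) • c := by
    rw [Sq_act h1', hy, ← ht]
    simp
  have e := Sq_conj (Sq c u a) (v := u) y b 1 hgu hy'
  have e1 : (1 : F) • ((Sq c u a).1 *ᵥ y) = t • u + (y + (a * t) • c) := by
    rw [one_smul, hgy]
    abel
  have h3 : ⟪u, y + (a * t) • c⟫ = 0 := by
    rw [fm_add_right, fm_smul_right, hy', h1]
    ring
  rw [e1, Sq_add_self h3, h2, zero_mul, add_zero, one_pow, one_mul] at e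
  have hfix : Sq u (y + (a * t) • c) b • x = x := by
    rw [← e, mul_smul, mul_smul, inv_smul_eq_iff.2 hca.symm, hub, hca]
  have h4 : ⟪u, (a * t) • c⟫ = 0 := by rw [fm_smul_right, h1, mul_zero]
  have e2 : Sq u y b * Sq u ((a * t) • c) (a * t ^ 2) = Sq u (y + (a * t) • c) b * tS u (2 * b) := by
    rw [Sq_mul hy' h4, Sq_tS h3]
    congr 1
    rw [h2]
    have e3 : ⟪(a * t) • c, y⟫ = -(a * t * t) := by
      rw [fm_smul_left, fm_anti y c, ← ht]
      ring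
    rw [e3, zero_mul, add_zero]
    have : t ^ 2 = t * t := by ring
    rw [this]
    have h5 : -(a * t * t) = a * t * t := by
      have : -(a * t * t) - a * t * t = -(2 * (a * t * t)) := by ring
      rw [h2, zero_mul, neg_zero] at this
      exact sub_eq_zero.1 this
    rw [h5]
    have h6 : b + a * (t * t) + a * t * t = b + 2 * (a * t * t) := by ring
    rw [h6, h2, zero_mul, add_zero]
  have e3 : tS u (2 * b) = 1 := by rw [h2, zero_mul, tS_zero]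
  rw [e3, mul_one] at e2
  have : Sq u y b • (Sq u ((a * t) • c) (a * t ^ 2) • x) = Sq u y b • x := by
    rw [← mul_smul, e2, hfix, hub]
  exact smul_left_cancel _ this

/-- A non-zero parameter forces the full transvection group to fix the point. -/
lemma all_of_ne_zero [Fintype F] (h2 : (2 : F) = 0) (hq : 3 ≤ Fintype.card F) {x : X}
    (H : ∀ c : VV m F, c ≠ 0 → ∀ y, ⟪c, y⟫ = 0 → ∃ a, Sq c y a • x = x) {c u : VV m F} {a : F} (hc0 : c ≠ 0)
    (hu0 : u ≠ 0) (h1 : ⟪c, u⟫ = 0) (hind1 : ∀ κ : F, u ≠ κ • c) (hind2 : ∀ κ : F, c ≠ κ • u) (ha : a ≠ 0)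
    (hfix : Sq c u a • x = x) (δ : F) : tS c δ • x = x := by
  classical
  have h1' : ⟪u, c⟫ = 0 := fm_comm0 h1
  have key : ∀ t : F, t ≠ 0 → Sq c u (a⁻¹ * (t⁻¹) ^ 2) • x = x := by
    intro t ht
    obtain ⟨y, hy1, hy2⟩ := exists_sepV hu0 hind2 0 t
    obtain ⟨b, hb⟩ := H u hu0 y (fm_comm0 hy1)
    have s1 := step_two h2 h1' hy1 hfix hb
    rw [hy2] at s1
    have hat : a * t ≠ 0 := mul_ne_zero ha ht
    set t' : F := (a ^ 2 * t ^ 3)⁻¹ with ht'
    obtain ⟨y', hy'1, hy'2⟩ := exists_sepV hc0 hind1 0 t'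
    have e0 : ⟪y', (a * t) • c⟫ = 0 := by rw [fm_smul_right, hy'1, mul_zero]
    obtain ⟨b', hb'⟩ := H ((a * t) • c) (smul_ne_zero hat hc0) y' (fm_comm0 e0)
    have e1 : ⟪(a * t) • c, u⟫ = 0 := by rw [fm_smul_left, h1, mul_zero]
    have s2 := step_two h2 e1 e0 s1 hb'
    rw [hy'2, Sq_smul_left (by rw [fm_smul_right, h1, mul_zero]), smul_smul] at s2
    have e3 : a * t * (a * t ^ 2 * t') = 1 := by
      rw [ht']
      field_simp
    have e4 : (a * t) ^ 2 * (a * t ^ 2 * t' ^ 2) = a⁻¹ * (t⁻¹) ^ 2 := by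
      rw [ht']
      field_simp
    rw [e3, e4, one_smul] at s2
    exact s2
  have hall : ∀ α : F, α ≠ 0 → Sq c u α • x = x := by
    intro α hα
    have hs : ringChar F = 2 := by
      have : CharP F 2 := by
        apply CharTwo.of_one_ne_zero_of_two_eq_zero one_ne_zero h2
      exact ringChar.eq F 2
    obtain ⟨r, hr⟩ := FiniteField.isSquare_of_char_two hs (a * α)
    have hr0 : r ≠ 0 := by
      rintro rfl
      rw [mul_zero] at hr
      exact (mul_ne_zero ha hα) hr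
    have e : α = a⁻¹ * ((r⁻¹)⁻¹) ^ 2 := by
      rw [inv_inv, sq, ← hr, inv_mul_cancel_left₀ ha]
    rw [e]
    exact key _ (inv_ne_zero hr0)
  obtain ⟨α, h3, h4⟩ := exists_ne_two hq (0 : F) (-δ)
  have e5 : Sq c u (α + δ) = tS c δ * Sq c u α := by rw [tS_Sq h1]
  have h5 := hall (α + δ) (fun h => h4 (by linear_combination h))
  rw [e5, mul_smul, hall α h3] at h5
  exact h5

/-- Step (a) in characteristic two. -/
theorem exists_Ns_ne_two [Fintype F] (h2 : (2 : F) = 0) (hq : 3 ≤ Fintype.card F) (hm : 2 ≤ m) (x : X)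
    (hB : ∀ u : VV m F, u ≠ 0 → ¬ ∀ c, tS u c • x = x) :
    ∃ v w : VV m F, ⟪v, w⟫ = 1 ∧ ∃ y ∈ Ee v w, y ∉ Ns v w x := by
  classical
  by_contra hcon
  push Not at hcon
  have H : ∀ c : VV m F, c ≠ 0 → ∀ y, ⟪c, y⟫ = 0 → ∃ a, Sq c y a • x = x := by
    intro c hc y hy
    obtain ⟨w, hw⟩ := exists_hyp hc
    have e1 : y - ⟪y, w⟫ • c ∈ Ee c w := by
      constructor
      · rw [fm_sub_left, fm_smul_left, fm_self, fm_comm0 hy]
        ring
      · rw [fm_sub_left, fm_smul_left, hw]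
        ring
    obtain ⟨-, a, ha⟩ := hcon c w hw _ e1
    refine ⟨a - 2 * ⟪y, w⟫, ?_⟩
    have e4 := Sq_add_self (fm_comm0 e1.1) ⟪y, w⟫ (a - 2 * ⟪y, w⟫)
    rw [show ⟪y, w⟫ • c + (y - ⟪y, w⟫ • c) = y by abel, sub_add_cancel] at e4
    rw [e4]
    exact ha
  -- a hyperbolic pair
  have hex : ∃ c w : VV m F, ⟪c, w⟫ = 1 := by
    have hne : (Pi.single (Sum.inl (⟨0, by omega⟩ : Fin m)) 1 : VV m F) ≠ 0 := by
      intro h
      have := congrFun h (Sum.inl ⟨0, by omega⟩)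
      simp at this
    obtain ⟨w, hw⟩ := exists_hyp hne
    exact ⟨_, w, hw⟩
  obtain ⟨c, w, hcw⟩ := hex
  have hc0 := ne_zero_of_hyp hcw
  have hE : ∃ y ∈ Ee c w, y ≠ 0 := exists_Ee_ne hcw hm
  obtain ⟨u₀, hu₀, hu₀0⟩ := hE
  obtain ⟨u₁, hu₁, h01⟩ := exists_Ee_hyp hcw hu₀ hu₀0
  have hu₁0 : u₁ ≠ 0 := ne_zero_of_hyp' h01
  have hind1 : ∀ z ∈ Ee c w, z ≠ 0 → ∀ κ : F, z ≠ κ • c := by
    rintro z hz hz0 κ rfl
    have := hz.2
    rw [fm_smul_left, hcw, mul_one] at this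
    rw [this, zero_smul] at hz0
    exact hz0 rfl
  have hind2 : ∀ z ∈ Ee c w, ∀ κ : F, c ≠ κ • z := by
    rintro z hz κ h
    have := hcw
    rw [h, fm_smul_left, hz.2, mul_zero] at this
    exact zero_ne_one this
  have hzero : ∀ z ∈ Ee c w, z ≠ 0 → ∀ a : F, Sq c z a • x = x → a = 0 := by
    intro z hz hz0 a ha
    by_contra ha0
    exact hB c hc0 (all_of_ne_zero h2 hq H hc0 hz0 (fm_comm0 hz.1) (hind1 z hz hz0) (hind2 z hz) ha0 ha)
  obtain ⟨a₀, ha₀⟩ := H c hc0 u₀ (fm_comm0 hu₀.1)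
  obtain ⟨a₁, ha₁⟩ := H c hc0 u₁ (fm_comm0 hu₁.1)
  have e0 := hzero u₀ hu₀ hu₀0 a₀ ha₀
  have e1 := hzero u₁ hu₁ hu₁0 a₁ ha₁
  subst e0
  subst e1
  have hs : u₀ + u₁ ∈ Ee c w := (Ee c w).add_mem hu₀ hu₁
  have hs0 : u₀ + u₁ ≠ 0 := by
    intro h
    have : ⟪u₀, u₀ + u₁⟫ = 1 := by rw [fm_add_right, fm_self, h01, zero_add]
    rw [h, fm_zero_right] at this
    exact zero_ne_one this
  have e2 := hzero (u₀ + u₁) hs hs0 (0 + 0 + ⟪u₁, u₀⟫) (by
    rw [← Sq_mul (fm_comm0 hu₀.1) (fm_comm0 hu₁.1), mul_smul, ha₁, ha₀])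
  rw [zero_add, zero_add, fm_hyp h01] at e2
  exact one_ne_zero (neg_eq_zero.1 e2)

end char_two

/-- Step (a) in odd characteristic. -/
theorem exists_Ns_ne_odd [Fintype F] (h2 : (2 : F) ≠ 0) (hm : 2 ≤ m) (x : X) {v w : VV m F} (hvw : ⟪v, w⟫ = 1)
    (hB : ¬ ∀ c, tS v c • x = x) : ∃ y ∈ Ee v w, y ∉ Ns v w x := by
  by_contra hcon
  push Not at hcon
  apply hB
  obtain ⟨u₀, hu₀, hu₀0⟩ := exists_Ee_ne hvw hm
  obtain ⟨u₁, hu₁, h01⟩ := exists_Ee_hyp hvw hu₀ hu₀0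
  intro c
  have e := two_mem_Rs (hcon u₀ hu₀) (hcon ((2⁻¹ * c) • u₁) ((Ee v w).smul_mem _ hu₁))
  rw [fm_smul_left, fm_hyp h01] at e
  rw [mem_Rs] at e
  have e2 : 2 * (2⁻¹ * c * -1) = -c := by
    field_simp
  rw [e2, tS_neg, inv_smul_eq_iff] at e
  exact e.symm

end Cfsg.Agent.Lib.MinSp.CaseBa
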