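import Cfsg.Agent.Lib.MinSp.Perp

/-!
# Minimal index of `PSp`: the counting framework

For a `G`-set `X`, a hyperbolic pair `v, w` and a point `x`: the invariants `Rs v x`, `Ns v w x`, the `Q_v`-orbit of `x`,
the behaviour under the Levi complement, and the resulting lower bound for `|X|`.
-/

set_option autoImplicit false

namespace Cfsg.Agent.Lib.MinSp.Count

open Matrix Cfsg Cfsg.Agent.Lib.Classical.SympForm Cfsg.Agent.Lib.PresSp.Vec Cfsg.Agent.Lib.MinSp.Basic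
  Cfsg.Agent.Lib.MinSp.Perp

variable {m : ℕ} {F : Type*} [Field F] {X : Type*} [MulAction (Spg m F) X]

local notation "⟪" x ", " y "⟫" => sympForm m F x y

/-- The transvections in the direction `v` fixing `x`. -/
def Rs (v : VV m F) (x : X) : AddSubgroup F where
  carrier := {a | tS v a • x = x}
  add_mem' := by
    intro a b ha hb
    change tS v (a + b) • x = x
    rw [tS_add, mul_smul, hb, ha]
  zero_mem' := by
    change tS v 0 • x = x
    rw [tS_zero, one_smul]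
  neg_mem' := by
    intro a ha
    change tS v (-a) • x = x
    rw [tS_neg, inv_smul_eq_iff, ha]

lemma mem_Rs {v : VV m F} {x : X} {a : F} : a ∈ Rs v x ↔ tS v a • x = x := Iff.rfl

/-- The image in `E` of the stabiliser of `x` in `Q_v`. -/
def Ns (v w : VV m F) (x : X) : AddSubgroup (VV m F) where
  carrier := {y | y ∈ Ee v w ∧ ∃ a, Sq v y a • x = x}
  add_mem' := by
    rintro y y' ⟨h1, a, ha⟩ ⟨h2, a', ha'⟩
    refine ⟨(Ee v w).add_mem h1 h2, a + a' + ⟪y', y⟫, ?_⟩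
    rw [← Sq_mul (fm_comm0 h1.1) (fm_comm0 h2.1), mul_smul, ha', ha]
  zero_mem' := ⟨(Ee v w).zero_mem, 0, by rw [Sq_one, one_smul]⟩
  neg_mem' := by
    rintro y ⟨h1, a, ha⟩
    refine ⟨(Ee v w).neg_mem h1, -a, ?_⟩
    rw [← Sq_inv (fm_comm0 h1.1), inv_smul_eq_iff, ha]

lemma mem_Ns {v w : VV m F} {x : X} {y : VV m F} : y ∈ Ns v w x ↔ y ∈ Ee v w ∧ ∃ a, Sq v y a • x = x := Iff.rfl

lemma Ns_le {v w : VV m F} {x : X} {y : VV m F} (h : y ∈ Ns v w x) : y ∈ Ee v w := h.1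

/-- Elements of `Rs` and the translates. -/
lemma Sq_smul_of_mem {v y : VV m F} {x : X} {a r : F} (h : ⟪v, y⟫ = 0) (hr : r ∈ Rs v x) :
    Sq v y (a + r) • x = Sq v y a • x := by
  rw [← Sq_tS h, mul_smul, hr]

/-- `Sq` conjugated by `Sq`. -/
lemma Sq_conj_Sq {v y y' : VV m F} (h : ⟪v, y⟫ = 0) (h' : ⟪v, y'⟫ = 0) (a a' : F) :
    Sq v y a * Sq v y' a' * (Sq v y a)⁻¹ = Sq v y' (a' + 2 * ⟪y', y⟫) := by
  have h2 : ⟪v, y + y'⟫ = 0 := by rw [fm_add_right, h, h', add_zero]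
  have h3 : ⟪v, -y⟫ = 0 := by rw [fm_neg_right, h, neg_zero]
  rw [Sq_inv h, Sq_mul h h', Sq_mul h2 h3]
  congr 1
  · abel
  · simp only [fm_neg_left, fm_add_right, fm_self]
    rw [fm_anti y' y]
    ring

/-- The commutator in `Q_v`: products of elements of the stabiliser give transvections. -/
lemma two_mem_Rs {v w y y' : VV m F} {x : X} (hy : y ∈ Ns v w x) (hy' : y' ∈ Ns v w x) :
    2 * ⟪y', y⟫ ∈ Rs v x := by
  obtain ⟨h1, a, ha⟩ := hy
  obtain ⟨h2, a', ha'⟩ := hy'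
  have e := Sq_conj_Sq (fm_comm0 h1.1) (fm_comm0 h2.1) a a'
  have e2 : Sq v y' (a' + 2 * ⟪y', y⟫) • x = x := by
    rw [← e, mul_smul, mul_smul, inv_smul_eq_iff.2 ha.symm, ha', ha]
  rw [mem_Rs]
  have e3 : Sq v y' (a' + 2 * ⟪y', y⟫) = tS v (2 * ⟪y', y⟫) * Sq v y' a' := by
    rw [tS_Sq (fm_comm0 h2.1)]
  rw [e3, mul_smul, ha'] at e2
  exact e2

/-! ### The Levi complement -/

lemma levi_form {g : Spg m F} {v w : VV m F} {c : F} (hc : c ≠ 0) (hv : g.1 *ᵥ v = c • v)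
    (y : VV m F) : ⟪g.1 *ᵥ y, v⟫ = c⁻¹ * ⟪y, v⟫ := by
  have e : ⟪g.1 *ᵥ y, g.1 *ᵥ v⟫ = ⟪y, v⟫ := fm_act g y v
  rw [hv, fm_smul_right] at e
  rw [← e, inv_mul_cancel_left₀ hc]

lemma levi_E {g : Spg m F} {v w y : VV m F} {c : F} (hc : c ≠ 0) (hv : g.1 *ᵥ v = c • v)
    (hw : g.1 *ᵥ w = c⁻¹ • w) (hy : y ∈ Ee v w) : g.1 *ᵥ y ∈ Ee v w := by
  constructor
  · rw [levi_form (w := w) hc hv, hy.1, mul_zero]
  · rw [levi_form (w := w) (inv_ne_zero hc) hw, hy.2, mul_zero]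

lemma inv_levi {g : Spg m F} {v : VV m F} {c : F} (hc : c ≠ 0) (hv : g.1 *ᵥ v = c • v) :
    (g⁻¹).1 *ᵥ v = c⁻¹ • v := by
  have e := inv_act_act g v
  rw [hv, mulVec_smul] at e
  rw [← e, smul_smul, inv_mul_cancel₀ hc, one_smul]
  rw [e]

lemma Rs_act {g : Spg m F} {v : VV m F} {c : F} (hv : g.1 *ᵥ v = c • v) {x : X} {a : F} (ha : a ∈ Rs v x) :
    c ^ 2 * a ∈ Rs v (g • x) := by
  rw [mem_Rs]
  have e := tS_conj g v a
  rw [hv, tS_smul] at e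
  rw [← e, mul_smul, mul_smul, inv_smul_smul, ha]

lemma Ns_act {g : Spg m F} {v w : VV m F} {c : F} (hc : c ≠ 0) (hv : g.1 *ᵥ v = c • v)
    (hw : g.1 *ᵥ w = c⁻¹ • w) {x : X} {y : VV m F} (hy : y ∈ Ns v w x) :
    c • (g.1 *ᵥ y) ∈ Ns v w (g • x) := by
  obtain ⟨h1, a, ha⟩ := hy
  refine ⟨(Ee v w).smul_mem c (levi_E hc hv hw h1), c ^ 2 * a, ?_⟩
  rw [← Sq_conj g y a c hv (fm_comm0 h1.1), mul_smul, mul_smul, inv_smul_smul, ha]

/-- How `Rs` transforms. -/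
lemma Rs_image {g : Spg m F} {v : VV m F} {c : F} (hc : c ≠ 0) (hv : g.1 *ᵥ v = c • v) (x : X) :
    (Rs v (g • x) : Set F) = (fun a => c ^ 2 * a) '' (Rs v x : Set F) := by
  ext b
  constructor
  · intro hb
    refine ⟨(c⁻¹) ^ 2 * b, ?_, ?_⟩
    · have := Rs_act (inv_levi hc hv) (x := g • x) hb
      rwa [inv_smul_smul] at this
    · simp only
      field_simp
  · rintro ⟨a, ha, rfl⟩
    exact Rs_act hv ha

/-- How `Ns` transforms. -/
lemma Ns_image {g : Spg m F} {v w : VV m F} {c : F} (hc : c ≠ 0) (hv : g.1 *ᵥ v = c • v)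
    (hw : g.1 *ᵥ w = c⁻¹ • w) (x : X) :
    (Ns v w (g • x) : Set (VV m F)) = (fun y => c • (g.1 *ᵥ y)) '' (Ns v w x : Set (VV m F)) := by
  ext b
  constructor
  · intro hb
    refine ⟨c⁻¹ • ((g⁻¹).1 *ᵥ b), ?_, ?_⟩
    · have := Ns_act (inv_ne_zero hc) (inv_levi hc hv) (by rw [inv_inv]; exact inv_levi (inv_ne_zero hc) hw |>.trans (by rw [inv_inv])) (x := g • x) hb
      rwa [inv_smul_smul] at this
    · simp only
      rw [mulVec_smul, act_inv_act, smul_smul, mul_inv_cancel₀ hc, one_smul]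
  · rintro ⟨a, ha, rfl⟩
    exact Ns_act hc hv hw ha

/-! ### The group `Q_v` and its orbits -/

/-- The unipotent radical of the stabiliser of the point `v`. -/
def Qq (v w : VV m F) : Subgroup (Spg m F) where
  carrier := {g | ∃ y ∈ Ee v w, ∃ a, g = Sq v y a}
  mul_mem' := by
    rintro _ _ ⟨y, hy, a, rfl⟩ ⟨y', hy', a', rfl⟩
    exact ⟨y + y', (Ee v w).add_mem hy hy', a + a' + ⟪y', y⟫, Sq_mul (fm_comm0 hy.1) (fm_comm0 hy'.1) a a'⟩
  one_mem' := ⟨0, (Ee v w).zero_mem, 0, (Sq_one v).symm⟩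
  inv_mem' := by
    rintro _ ⟨y, hy, a, rfl⟩
    exact ⟨-y, (Ee v w).neg_mem hy, -a, Sq_inv (fm_comm0 hy.1) a⟩

lemma mem_Qq {v w : VV m F} {g : Spg m F} : g ∈ Qq v w ↔ ∃ y ∈ Ee v w, ∃ a, g = Sq v y a := Iff.rfl

lemma Sq_mem {v w y : VV m F} (hy : y ∈ Ee v w) (a : F) : Sq v y a ∈ Qq v w := ⟨y, hy, a, rfl⟩

lemma Sq_inj {v w y y' : VV m F} {a a' : F} (hvw : ⟪v, w⟫ = 1) (hy : y ∈ Ee v w) (hy' : y' ∈ Ee v w)
    (h : Sq v y a = Sq v y' a') : y = y' ∧ a = a' := by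
  have e := congrArg (fun g : Spg m F => g.1 *ᵥ w) h
  simp only [Sq_act (fm_comm0 hy.1), Sq_act (fm_comm0 hy'.1), fm_hyp hvw, fm_comm0 hy.2, fm_comm0 hy'.2] at e
  have e1 : y + a • v = y' + a' • v := by
    have : y + a • v - (y' + a' • v) = 0 := by
      have e' : w + (-1 : F) • y + (0 + a * -1) • v - (w + (-1 : F) • y' + (0 + a' * -1) • v) = 0 := by
        rw [e, sub_self]
      have : y + a • v - (y' + a' • v) = -(w + (-1 : F) • y + (0 + a * -1) • v - (w + (-1 : F) • y' + (0 + a' * -1) • v)) := by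
        module
      rw [this, e', neg_zero]
    exact sub_eq_zero.1 this
  have e2 : ⟪y + a • v, w⟫ = ⟪y' + a' • v, w⟫ := by rw [e1]
  simp only [fm_add_left, fm_smul_left, hy.2, hy'.2, hvw, zero_add, mul_one] at e2
  subst e2
  exact ⟨add_right_cancel e1, rfl⟩

/-- The `Q_v`-orbit of a point. -/
def Orb (v w : VV m F) (x : X) : Set X := MulAction.orbit (Qq v w) x

lemma mem_Orb {v w : VV m F} {x z : X} : z ∈ Orb v w x ↔ ∃ y ∈ Ee v w, ∃ a, z = Sq v y a • x := by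
  constructor
  · rintro ⟨⟨_, y, hy, a, rfl⟩, rfl⟩
    exact ⟨y, hy, a, rfl⟩
  · rintro ⟨y, hy, a, rfl⟩
    exact ⟨⟨_, Sq_mem hy a⟩, rfl⟩

lemma self_mem_Orb (v w : VV m F) (x : X) : x ∈ Orb v w x := MulAction.mem_orbit_self x

section finite

variable [Fintype F]

instance instFiniteSpg : Finite (Spg m F) := inferInstance

lemma card_Qq {v w : VV m F} (hvw : ⟪v, w⟫ = 1) :
    Nat.card (Qq v w) = Fintype.card F * Nat.card (Ee v w) := by
  have e : Nat.card ((Ee v w) × F) = Nat.card (Qq v w) := by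
    apply Nat.card_congr
    refine Equiv.ofBijective (fun p => ⟨Sq v p.1.1 p.2, Sq_mem p.1.2 p.2⟩) ⟨?_, ?_⟩
    · rintro ⟨⟨y, hy⟩, a⟩ ⟨⟨y', hy'⟩, a'⟩ h
      have h' := congrArg Subtype.val h
      obtain ⟨e1, e2⟩ := Sq_inj hvw hy hy' h'
      subst e1
      subst e2
      rfl
    · rintro ⟨_, y, hy, a, rfl⟩
      exact ⟨⟨⟨y, hy⟩, a⟩, rfl⟩
  rw [← e, Nat.card_prod, Nat.card_eq_fintype_card (α := F)]
  ring

/-- The stabiliser of `x` in `Q_v` has order `|Rs| |Ns|`. -/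
lemma card_stab {v w : VV m F} (hvw : ⟪v, w⟫ = 1) (x : X) :
    Nat.card (MulAction.stabilizer (Qq v w) x) = Nat.card (Rs v x) * Nat.card (Ns v w x) := by
  classical
  have hc : ∀ y : Ns v w x, ∃ a, Sq v y.1 a • x = x := fun y => y.2.2
  choose af haf using hc
  rw [← Nat.card_prod]
  apply Nat.card_congr
  symm
  refine Equiv.ofBijective (fun p => ⟨⟨Sq v p.2.1 (af p.2 + p.1.1), Sq_mem p.2.2.1 _⟩, ?_⟩) ⟨?_, ?_⟩
  · rw [MulAction.mem_stabilizer_iff, Subgroup.smul_def]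
    change Sq v p.2.1 (af p.2 + p.1.1) • x = x
    rw [Sq_smul_of_mem (fm_comm0 p.2.2.1.1) p.1.2, haf]
  · rintro ⟨⟨r, hr⟩, ⟨y, hy⟩⟩ ⟨⟨r', hr'⟩, ⟨y', hy'⟩⟩ h
    have h' := congrArg (fun g => ((g : Qq v w) : Spg m F)) (congrArg Subtype.val h)
    simp only at h'
    obtain ⟨e1, e2⟩ := Sq_inj hvw hy.1 hy'.1 h'
    subst e1
    have : r = r' := add_left_cancel e2
    subst this
    rfl
  · rintro ⟨⟨_, y, hy, a, rfl⟩, hst⟩
    have hst' : Sq v y a • x = x := by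
      rw [MulAction.mem_stabilizer_iff, Subgroup.smul_def] at hst
      exact hst
    have hyN : y ∈ Ns v w x := ⟨hy, a, hst'⟩
    refine ⟨⟨⟨a - af ⟨y, hyN⟩, ?_⟩, ⟨y, hyN⟩⟩, ?_⟩
    · rw [mem_Rs]
      have e : Sq v y a = tS v (a - af ⟨y, hyN⟩) * Sq v y (af ⟨y, hyN⟩) := by
        rw [tS_Sq (fm_comm0 hy.1)]
        congr 1
        ring
      have h2 := haf ⟨y, hyN⟩
      simp only at h2
      rw [e, mul_smul, h2] at hst'
      exact hst'
    · apply Subtype.ext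
      apply Subtype.ext
      simp only
      congr 1
      ring

/-- Size of the orbit. -/
theorem card_Orb {v w : VV m F} (hvw : ⟪v, w⟫ = 1) (x : X) :
    Nat.card (Orb v w x) * (Nat.card (Rs v x) * Nat.card (Ns v w x)) = Fintype.card F * Nat.card (Ee v w) := by
  rw [← card_stab hvw x, ← card_Qq hvw]
  have e1 := Subgroup.card_mul_index (MulAction.stabilizer (Qq v w) x)
  rw [MulAction.index_stabilizer] at e1
  rw [← e1, mul_comm]
  rfl

end finite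

/-- The invariants are constant on the orbits. -/
lemma Rs_Sq {v w y : VV m F} (hy : y ∈ Ee v w) (a : F) (x : X) : Rs v (Sq v y a • x) = Rs v x := by
  have key : ∀ (y : VV m F) (a : F) (x : X), y ∈ Ee v w → Rs v x ≤ Rs v (Sq v y a • x) := by
    intro y a x hy b hb
    rw [mem_Rs] at hb ⊢
    rw [smul_smul, tS_Sq_comm (fm_comm0 hy.1), mul_smul, hb]
  apply le_antisymm
  · have := key (-y) (-a) (Sq v y a • x) ((Ee v w).neg_mem hy)
    rwa [← Sq_inv (fm_comm0 hy.1), inv_smul_smul] at this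
  · exact key y a x hy

lemma Ns_Sq {v w y : VV m F} (hy : y ∈ Ee v w) (a : F) (x : X) : Ns v w (Sq v y a • x) = Ns v w x := by
  have key : ∀ (y : VV m F) (a : F) (x : X), y ∈ Ee v w → Ns v w x ≤ Ns v w (Sq v y a • x) := by
    rintro y a x hy b ⟨hb, c, hc⟩
    refine ⟨hb, c + 2 * ⟪b, y⟫, ?_⟩
    rw [← Sq_conj_Sq (fm_comm0 hy.1) (fm_comm0 hb.1), mul_smul, mul_smul, inv_smul_smul, hc]
  apply le_antisymm
  · have := key (-y) (-a) (Sq v y a • x) ((Ee v w).neg_mem hy)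
    rwa [← Sq_inv (fm_comm0 hy.1), inv_smul_smul] at this
  · exact key y a x hy

lemma Rs_Orb {v w : VV m F} {x z : X} (hz : z ∈ Orb v w x) : Rs v z = Rs v x := by
  obtain ⟨y, hy, a, rfl⟩ := mem_Orb.1 hz
  exact Rs_Sq hy a x

lemma Ns_Orb {v w : VV m F} {x z : X} (hz : z ∈ Orb v w x) : Ns v w z = Ns v w x := by
  obtain ⟨y, hy, a, rfl⟩ := mem_Orb.1 hz
  exact Ns_Sq hy a x

/-! ### The conjugates -/

/-- The multiples of `R` by non-zero squares. -/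
def Rconj (R : Set F) : Set (Set F) := {T | ∃ c : F, c ≠ 0 ∧ T = (fun a => c ^ 2 * a) '' R}

/-- The conjugates of `A` under the Levi factor fixing `v, w`. -/
def Aconj (v w : VV m F) (A : Set (VV m F)) : Set (Set (VV m F)) :=
  {T | ∃ g : Spg m F, g.1 *ᵥ v = v ∧ g.1 *ᵥ w = w ∧ T = (fun y => g.1 *ᵥ y) '' A}

lemma self_mem_Rconj (R : Set F) : R ∈ Rconj R := ⟨1, one_ne_zero, by simp⟩

lemma self_mem_Aconj (v w : VV m F) (A : Set (VV m F)) : A ∈ Aconj v w A :=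
  ⟨1, one_act v, one_act w, by simp only [one_act, Set.image_id']⟩

variable {p : ℕ} [Fact p.Prime]

/-- The image of the orthogonal complement. -/
lemma image_perpE {l : F →+ ZMod p} {v w : VV m F} {g : Spg m F} (hgv : g.1 *ᵥ v = v) (hgw : g.1 *ᵥ w = w)
    (N : AddSubgroup (VV m F)) :
    (fun y => g.1 *ᵥ y) '' (perpE l v w N : Set (VV m F)) =
      {z | z ∈ Ee v w ∧ ∀ y' ∈ (fun y => g.1 *ᵥ y) '' (N : Set (VV m F)), l ⟪z, y'⟫ = 0} := by
  have hgv' : g.1 *ᵥ v = (1 : F) • v := by rw [one_smul, hgv]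
  have hgw' : g.1 *ᵥ w = (1 : F)⁻¹ • w := by rw [inv_one, one_smul, hgw]
  have hginv : (g⁻¹).1 *ᵥ v = (1 : F) • v := by
    have := inv_levi (one_ne_zero) hgv'
    rwa [inv_one] at this
  have hginv' : (g⁻¹).1 *ᵥ w = (1 : F)⁻¹ • w := inv_levi (c := (1 : F)) (one_ne_zero) (by rw [one_smul, hgw])
  ext z
  constructor
  · rintro ⟨a, ⟨ha, hb⟩, rfl⟩
    refine ⟨levi_E one_ne_zero hgv' hgw' ha, ?_⟩
    rintro _ ⟨y, hy, rfl⟩
    simp only
    rw [fm_act]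
    exact hb y hy
  · rintro ⟨hz, hb⟩
    refine ⟨(g⁻¹).1 *ᵥ z, ⟨levi_E one_ne_zero hginv hginv' hz, fun y hy => ?_⟩, act_inv_act g z⟩
    have := hb (g.1 *ᵥ y) ⟨y, hy, rfl⟩
    rwa [← fm_act g⁻¹, inv_act_act] at this

variable [Fintype F]

/-- The main counting inequality. -/
theorem count1 [Finite X] {l : F →+ ZMod p} {v w : VV m F} (hvw : ⟪v, w⟫ = 1) (R : AddSubgroup F)
    (N : AddSubgroup (VV m F)) (hN : ∀ y ∈ N, y ∈ Ee v w) (Y Z : Set X)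
    (hY : ∀ (c : F) (hc : c ≠ 0) (g : Spg m F), g.1 *ᵥ v = v → g.1 *ᵥ w = w → ∀ z ∈ Y, (dd hvw hc * g) • z ∈ Y)
    (hZ : ∀ z ∈ Z, z ∈ Y ∧ Rs v z = R ∧ Ns v w z = N) :
    Nat.card (Rconj (R : Set F)) * Nat.card (Aconj v w (perpE l v w N : Set (VV m F))) * Nat.card Z ≤ Nat.card Y := by
  classical
  have hR : ∀ T : Rconj (R : Set F), ∃ c : F, ∃ _ : c ≠ 0, T.1 = (fun a => c ^ 2 * a) '' (R : Set F) := by
    rintro ⟨T, c, hc, h⟩
    exact ⟨c, hc, h⟩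
  choose cf hcf hcT using hR
  have hA : ∀ T : Aconj v w (perpE l v w N : Set (VV m F)), ∃ g : Spg m F, g.1 *ᵥ v = v ∧ g.1 *ᵥ w = w ∧
      T.1 = (fun y => g.1 *ᵥ y) '' (perpE l v w N : Set (VV m F)) := fun T => T.2
  choose gf hg1 hg2 hgT using hA
  let Ψ : (Rconj (R : Set F)) × (Aconj v w (perpE l v w N : Set (VV m F))) × Z → Y := fun p =>
    ⟨(dd hvw (hcf p.1) * gf p.2.1) • p.2.2.1, hY _ _ _ (hg1 _) (hg2 _) _ (hZ _ p.2.2.2).1⟩
  have hlevi : ∀ (T₁ : Rconj (R : Set F)) (T₂ : Aconj v w (perpE l v w N : Set (VV m F))),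
      (dd hvw (hcf T₁) * gf T₂).1 *ᵥ v = cf T₁ • v ∧ (dd hvw (hcf T₁) * gf T₂).1 *ᵥ w = (cf T₁)⁻¹ • w := by
    intro T₁ T₂
    rw [mul_act, mul_act, hg1, hg2, dd_v, dd_w]
    exact ⟨rfl, rfl⟩
  have hRz : ∀ (T₁ : Rconj (R : Set F)) (T₂ : Aconj v w (perpE l v w N : Set (VV m F))) (z : Z),
      (Rs v ((dd hvw (hcf T₁) * gf T₂) • z.1) : Set F) = T₁.1 := by
    intro T₁ T₂ z
    rw [Rs_image (hcf T₁) (hlevi T₁ T₂).1, (hZ _ z.2).2.1, hcT T₁]
  have hNz : ∀ (T₁ : Rconj (R : Set F)) (T₂ : Aconj v w (perpE l v w N : Set (VV m F))) (z : Z),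
      (Ns v w ((dd hvw (hcf T₁) * gf T₂) • z.1) : Set (VV m F)) = (fun y => cf T₁ • (gf T₂).1 *ᵥ y) '' (N : Set (VV m F)) := by
    intro T₁ T₂ z
    rw [Ns_image (hcf T₁) (hlevi T₁ T₂).1 (hlevi T₁ T₂).2, (hZ _ z.2).2.2]
    apply Set.image_congr
    intro y hy
    have h1 : (gf T₂).1 *ᵥ y ∈ Ee v w := by
      apply levi_E (c := 1) one_ne_zero (by rw [one_smul, hg1]) (by rw [inv_one, one_smul, hg2]) (hN y hy)
    rw [mul_act, dd_E hvw (hcf T₁) h1]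
  have hinj : Function.Injective Ψ := by
    rintro ⟨T₁, T₂, z⟩ ⟨T₁', T₂', z'⟩ h
    have h' : (dd hvw (hcf T₁) * gf T₂) • z.1 = (dd hvw (hcf T₁') * gf T₂') • z'.1 := congrArg Subtype.val h
    have e1 : T₁ = T₁' := by
      apply Subtype.ext
      rw [← hRz T₁ T₂ z, ← hRz T₁' T₂' z', h']
    subst e1
    have e2 := hNz T₁ T₂ z
    rw [h', hNz T₁ T₂' z'] at e2
    have e3 : (fun y => (gf T₂).1 *ᵥ y) '' (N : Set (VV m F)) = (fun y => (gf T₂').1 *ᵥ y) '' (N : Set (VV m F)) := by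
      have hne := hcf T₁
      ext b
      have key : ∀ (g g' : Spg m F), (fun y => cf T₁ • g.1 *ᵥ y) '' (N : Set (VV m F)) =
          (fun y => cf T₁ • g'.1 *ᵥ y) '' (N : Set (VV m F)) →
          b ∈ (fun y => g'.1 *ᵥ y) '' (N : Set (VV m F)) → b ∈ (fun y => g.1 *ᵥ y) '' (N : Set (VV m F)) := by
        rintro g g' he ⟨y, hy, rfl⟩
        have : cf T₁ • g'.1 *ᵥ y ∈ (fun y => cf T₁ • g.1 *ᵥ y) '' (N : Set (VV m F)) := by
          rw [he]
          exact ⟨y, hy, rfl⟩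
        obtain ⟨y', hy', e⟩ := this
        exact ⟨y', hy', smul_right_injective _ hne e⟩
      exact ⟨key _ _ e2, key _ _ e2.symm⟩
    have e4 : T₂ = T₂' := by
      apply Subtype.ext
      rw [hgT T₂, hgT T₂', image_perpE (hg1 _) (hg2 _), image_perpE (hg1 _) (hg2 _), e3]
    subst e4
    have e5 : z = z' := Subtype.ext (smul_left_cancel _ h')
    subst e5
    rfl
  have := Nat.card_le_card_of_injective Ψ hinj
  rw [Nat.card_prod, Nat.card_prod, ← mul_assoc] at this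
  exact this

end Cfsg.Agent.Lib.MinSp.Count
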