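import Cfsg.Agent.Lib.MinSp.Count

/-!
# Minimal index of `PSp`: covering arguments

The conjugates of `A` cover `E \ {0}`, the multiples of the dual of `R` by squares cover a coset of the squares.
-/

set_option autoImplicit false

namespace Cfsg.Agent.Lib.MinSp.Cover

open Matrix Cfsg Cfsg.Agent.Lib.Classical.SympForm Cfsg.Agent.Lib.PresSp.Vec Cfsg.Agent.Lib.MinSp.Basic
  Cfsg.Agent.Lib.MinSp.Perp Cfsg.Agent.Lib.MinSp.Count

variable {m : ℕ} {F : Type*} [Field F]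

local notation "⟪" x ", " y "⟫" => sympForm m F x y

/-- The number of non-zero elements of a subgroup. -/
lemma card_filter_ne {W : Type*} [AddCommGroup W] [Fintype W] [DecidableEq W] (A : AddSubgroup W)
    [DecidablePred (fun y => y ∈ A)] :
    (Finset.univ.filter (fun y => y ∈ A ∧ y ≠ 0)).card = Nat.card A - 1 := by
  have e1 : Nat.card A = (Finset.univ.filter (fun y => y ∈ A)).card := by
    rw [Nat.card_eq_fintype_card, Fintype.card_subtype]
  have e2 : Finset.univ.filter (fun y => y ∈ A) = insert 0 (Finset.univ.filter (fun y => y ∈ A ∧ y ≠ 0)) := by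
    ext y
    simp only [Finset.mem_filter, Finset.mem_univ, true_and, Finset.mem_insert]
    by_cases hy : y = 0
    · simp [hy, A.zero_mem]
    · simp [hy]
  have e3 : (0 : W) ∉ Finset.univ.filter (fun y => y ∈ A ∧ y ≠ 0) := by simp
  rw [e1, e2, Finset.card_insert_of_notMem e3]
  simp

section cover

variable [Fintype F]

/-- Double counting: the conjugates of `A` cover `E \ {0}` at least `r` times. -/
theorem cover {v w : VV m F} (hvw : ⟪v, w⟫ = 1) (A : AddSubgroup (VV m F)) (hA : ∀ y ∈ A, y ∈ Ee v w) (r : ℕ)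
    (hr : ∀ z ∈ Ee v w, z ≠ 0 → ∃ S : Finset (Set (VV m F)), S.card = r ∧
      ∀ T ∈ S, T ∈ Aconj v w (A : Set (VV m F)) ∧ z ∈ T) :
    r * (Nat.card (Ee v w) - 1) ≤ Nat.card (Aconj v w (A : Set (VV m F))) * (Nat.card A - 1) := by
  classical
  let s : Finset (VV m F) := Finset.univ.filter (fun z => z ∈ (Ee v w).toAddSubgroup ∧ z ≠ 0)
  let t : Finset (Set (VV m F)) := (Set.toFinite (Aconj v w (A : Set (VV m F)))).toFinset
  have hs : s.card = Nat.card (Ee v w) - 1 := card_filter_ne (Ee v w).toAddSubgroup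
  have ht : t.card = Nat.card (Aconj v w (A : Set (VV m F))) :=
    (Nat.card_eq_card_finite_toFinset _).symm
  have key := Finset.card_mul_le_card_mul (fun (z : VV m F) (T : Set (VV m F)) => z ∈ T) (s := s) (t := t) (m := r)
    (n := Nat.card A - 1) ?_ ?_
  · rw [hs, ht, mul_comm] at key
    exact key
  · intro z hz
    simp only [s, Finset.mem_filter, Finset.mem_univ, true_and] at hz
    obtain ⟨S, hS, hST⟩ := hr z hz.1 hz.2
    rw [← hS]
    apply Finset.card_le_card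
    intro T hT
    simp only [Finset.bipartiteAbove, Finset.mem_filter, t, Set.Finite.mem_toFinset]
    exact ⟨(hST T hT).1, (hST T hT).2⟩
  · intro T hT
    simp only [t, Set.Finite.mem_toFinset] at hT
    obtain ⟨g, hg1, hg2, rfl⟩ := hT
    rw [← card_filter_ne A]
    apply Finset.card_le_card_of_injOn (fun z => (g⁻¹).1 *ᵥ z)
    · intro z hz
      simp only [Finset.bipartiteBelow, Finset.coe_filter, s, Finset.mem_filter, Finset.mem_univ, true_and,
        Set.mem_setOf_eq] at hz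
      obtain ⟨⟨-, hz0⟩, ⟨y, hy, rfl⟩⟩ := hz
      simp only [Finset.coe_filter, Finset.mem_univ, true_and, Set.mem_setOf_eq]
      rw [inv_act_act]
      refine ⟨hy, ?_⟩
      rintro rfl
      apply hz0
      exact mulVec_zero _
    · intro z _ z' _ h
      simp only at h
      have := congrArg (fun y => g.1 *ᵥ y) h
      simpa only [act_inv_act] using this

/-- If `A ≠ 0` then the conjugates of `A` cover `E \ {0}`. -/
theorem cover_one {v w : VV m F} (hvw : ⟪v, w⟫ = 1) (A : AddSubgroup (VV m F)) (hA : ∀ y ∈ A, y ∈ Ee v w)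
    {u : VV m F} (hu : u ∈ A) (hu0 : u ≠ 0) :
    Nat.card (Ee v w) - 1 ≤ Nat.card (Aconj v w (A : Set (VV m F))) * (Nat.card A - 1) := by
  have := cover hvw A hA 1 (fun z hz hz0 => by
    obtain ⟨g, hg1, hg2, hg3⟩ := levi_trans hvw (hA u hu) hu0 hz hz0
    refine ⟨{(fun y => g.1 *ᵥ y) '' (A : Set (VV m F))}, Finset.card_singleton _, ?_⟩
    intro T hT
    rw [Finset.mem_singleton] at hT
    subst hT
    exact ⟨⟨g, hg1, hg2, rfl⟩, ⟨u, hu, hg3⟩⟩)
  rwa [one_mul] at this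

/-- Separation of two independent vectors of `E`. -/
lemma exists_sep {v w u u' : VV m F} (hvw : ⟪v, w⟫ = 1) (hu : u ∈ Ee v w) (hu' : u' ∈ Ee v w) (hu0 : u ≠ 0)
    (hind : ∀ κ : F, u' ≠ κ • u) (s t : F) : ∃ y ∈ Ee v w, ⟪y, u⟫ = s ∧ ⟪y, u'⟫ = t := by
  obtain ⟨a, ha, hua⟩ := exists_Ee_hyp hvw hu hu0
  set κ := ⟪u', a⟫ with hκ
  have hu'' : u' - κ • u ∈ Ee v w := (Ee v w).sub_mem hu' ((Ee v w).smul_mem κ hu)
  have hu''0 : u' - κ • u ≠ 0 := fun h => hind κ (sub_eq_zero.1 h)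
  obtain ⟨b, hb, hub⟩ := exists_Ee_hyp hvw hu'' hu''0
  rw [fm_sub_left, fm_smul_left] at hub
  set β := ⟪u, b⟫ with hβ
  have hub' : ⟪u', b⟫ = 1 + κ * β := by rw [← hub]; ring
  refine ⟨(-s * (1 + κ * β) + t * β) • a + (s * κ - t) • b, ?_, ?_, ?_⟩
  · exact (Ee v w).add_mem ((Ee v w).smul_mem _ ha) ((Ee v w).smul_mem _ hb)
  · rw [fm_anti, fm_add_right, fm_smul_right, fm_smul_right, hua, ← hβ]
    ring
  · rw [fm_anti, fm_add_right, fm_smul_right, fm_smul_right, ← hκ, hub']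
    ring

lemma exists_ne_two (hq : 3 ≤ Fintype.card F) (a b : F) : ∃ c : F, c ≠ a ∧ c ≠ b := by
  classical
  by_contra hcon
  push Not at hcon
  have h1 : (Finset.univ : Finset F) ⊆ {a, b} := by
    intro x _
    by_cases hx : x = a
    · simp [hx]
    · simp [hcon x hx]
  have h2 := Finset.card_le_card h1
  have h3 : ({a, b} : Finset F).card ≤ 2 := Finset.card_le_two
  rw [Finset.card_univ] at h2
  omega

/-- **Lemma C**: a subgroup of `E` containing two independent vectors and invariant under all transvections of `E`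
fixing one of these vectors is `E`. -/
theorem lemmaC (hq : 3 ≤ Fintype.card F) {v w : VV m F} (hvw : ⟪v, w⟫ = 1) (A : AddSubgroup (VV m F))
    (hA : ∀ y ∈ A, y ∈ Ee v w) (hne : ∃ y ∈ Ee v w, y ∉ A) {u u' : VV m F} (hu : u ∈ A) (hu' : u' ∈ A) (hu0 : u ≠ 0)
    (hind : ∀ κ : F, u' ≠ κ • u) :
    ∃ u₁ ∈ A, u₁ ≠ 0 ∧ ∃ τ : Spg m F, τ.1 *ᵥ v = v ∧ τ.1 *ᵥ w = w ∧ τ.1 *ᵥ u₁ = u₁ ∧
      (fun y => τ.1 *ᵥ y) '' (A : Set (VV m F)) ≠ A := by
  by_contra hcon
  push Not at hcon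
  have hu'0 : u' ≠ 0 := by
    have := hind 0
    rwa [zero_smul] at this
  have claim : ∀ (a b : VV m F), a ∈ A → a ≠ 0 → b ∈ A → ∀ y ∈ Ee v w, ⟪y, a⟫ = 0 → ⟪y, b⟫ ≠ 0 → y ∈ A := by
    intro a b ha ha0 hb y hy h1 h2
    have e1 : ⟪v, y⟫ = 0 := fm_comm0 hy.1
    have e2 : ⟪w, y⟫ = 0 := fm_comm0 hy.2
    have e3 : ⟪a, y⟫ = 0 := fm_comm0 h1
    have h4 : ⟪b, y⟫ ≠ 0 := by
      rw [fm_anti]
      exact neg_ne_zero.2 h2
    have key := hcon a ha ha0 (tS y (⟪b, y⟫)⁻¹) (by rw [tS_act, e1]; simp) (by rw [tS_act, e2]; simp)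
      (by rw [tS_act, e3]; simp)
    have hb2 : (tS y (⟪b, y⟫)⁻¹).1 *ᵥ b ∈ (fun y' => (tS y (⟪b, y⟫)⁻¹).1 *ᵥ y') '' (A : Set (VV m F)) := ⟨b, hb, rfl⟩
    rw [key, tS_act, inv_mul_cancel₀ h4, one_smul] at hb2
    have := A.sub_mem hb2 hb
    rwa [add_sub_cancel_left] at this
  obtain ⟨y, hy, hyA⟩ := hne
  apply hyA
  have huE := hA u hu
  have hu'E := hA u' hu'
  by_cases ht : ⟪y, u'⟫ = 0
  · obtain ⟨ρ, h1, h2⟩ := exists_ne_two hq (0 : F) ⟪y, u⟫
    obtain ⟨y₃, hy₃, e1, e2⟩ := exists_sep hvw huE hu'E hu0 hind ρ 0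
    have a1 : y₃ ∈ A := claim u' u hu' hu'0 hu y₃ hy₃ e2 (by rw [e1]; exact h1)
    have a2 : y - y₃ ∈ A := by
      apply claim u' u hu' hu'0 hu (y - y₃) ((Ee v w).sub_mem hy hy₃)
      · rw [fm_sub_left, ht, e2, sub_zero]
      · rw [fm_sub_left, e1]
        exact sub_ne_zero.2 (Ne.symm h2)
    have := A.add_mem a2 a1
    rwa [sub_add_cancel] at this
  · by_cases hs : ⟪y, u⟫ = 0
    · exact claim u u' hu hu0 hu' y hy hs ht
    · obtain ⟨y₃, hy₃, e1, e2⟩ := exists_sep hvw huE hu'E hu0 hind ⟪y, u⟫ 0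
      have a1 : y₃ ∈ A := claim u' u hu' hu'0 hu y₃ hy₃ e2 (by rw [e1]; exact hs)
      have a2 : y - y₃ ∈ A := by
        apply claim u u' hu hu0 hu' (y - y₃) ((Ee v w).sub_mem hy hy₃)
        · rw [fm_sub_left, e1, sub_self]
        · rw [fm_sub_left, e2, sub_zero]
          exact ht
      have := A.add_mem a2 a1
      rwa [sub_add_cancel] at this

/-- If `A ≠ E` contains two independent vectors then its conjugates cover `E \ {0}` at least twice. -/
theorem cover_two (hq : 3 ≤ Fintype.card F) {v w : VV m F} (hvw : ⟪v, w⟫ = 1) (A : AddSubgroup (VV m F))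
    (hA : ∀ y ∈ A, y ∈ Ee v w) (hne : ∃ y ∈ Ee v w, y ∉ A) {u u' : VV m F} (hu : u ∈ A) (hu' : u' ∈ A) (hu0 : u ≠ 0)
    (hind : ∀ κ : F, u' ≠ κ • u) :
    2 * (Nat.card (Ee v w) - 1) ≤ Nat.card (Aconj v w (A : Set (VV m F))) * (Nat.card A - 1) := by
  classical
  obtain ⟨u₁, hu₁, hu₁0, τ, h1, h2, h3, h4⟩ := lemmaC hq hvw A hA hne hu hu' hu0 hind
  refine cover hvw A hA 2 (fun z hz hz0 => ?_)
  obtain ⟨g, hg1, hg2, hg3⟩ := levi_trans hvw (hA u₁ hu₁) hu₁0 hz hz0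
  have hne2 : (fun y => g.1 *ᵥ y) '' (A : Set (VV m F)) ≠ (fun y => (g * τ).1 *ᵥ y) '' (A : Set (VV m F)) := by
    intro he
    apply h4
    have key : ∀ y, y ∈ (fun y => τ.1 *ᵥ y) '' (A : Set (VV m F)) ↔ g.1 *ᵥ y ∈ (fun y => (g * τ).1 *ᵥ y) '' (A : Set (VV m F)) := by
      intro y
      constructor
      · rintro ⟨a, ha, rfl⟩
        exact ⟨a, ha, mul_act g τ a⟩
      · rintro ⟨a, ha, e⟩
        refine ⟨a, ha, ?_⟩
        have e' : g.1 *ᵥ (τ.1 *ᵥ a) = g.1 *ᵥ y := by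
          rw [← mul_act]
          exact e
        have := congrArg (fun b => (g⁻¹).1 *ᵥ b) e'
        simpa only [inv_act_act] using this
    ext y
    rw [key, ← he]
    constructor
    · rintro ⟨a, ha, e⟩
      have := congrArg (fun b => (g⁻¹).1 *ᵥ b) e
      simp only [inv_act_act] at this
      rwa [← this]
    · intro hy
      exact ⟨y, hy, rfl⟩
  refine ⟨{(fun y => g.1 *ᵥ y) '' (A : Set (VV m F)), (fun y => (g * τ).1 *ᵥ y) '' (A : Set (VV m F))},
    Finset.card_pair hne2, ?_⟩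
  intro T hT
  simp only [Finset.mem_insert, Finset.mem_singleton] at hT
  rcases hT with rfl | rfl
  · exact ⟨⟨g, hg1, hg2, rfl⟩, ⟨u₁, hu₁, hg3⟩⟩
  · refine ⟨⟨g * τ, by rw [mul_act, h1, hg1], by rw [mul_act, h2, hg2], rfl⟩, ⟨u₁, hu₁, ?_⟩⟩
    change (g * τ).1 *ᵥ u₁ = z
    rw [mul_act, h3, hg3]

end cover

end Cfsg.Agent.Lib.MinSp.Cover
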