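import Cfsg.Agent.Lib.MinSp.Omega

/-!
# Minimal index of `PSp`: double counting, the stabiliser of a point
-/

set_option autoImplicit false

namespace Cfsg.Agent.Lib.MinSp.Double

open Matrix Cfsg Cfsg.Agent.Lib.Classical.SympForm Cfsg.Agent.Lib.PresSp.Vec Cfsg.Agent.Lib.MinSp.Basic
  Cfsg.Agent.Lib.MinSp.Omega Cfsg.Agent.Lib.MinSp.Cover Cfsg.Agent.Lib.MinSp.Count

variable {m : ℕ} {F : Type*} [Field F] {X : Type*} [MulAction (Spg m F) X]

local notation "⟪" x ", " y "⟫" => sympForm m F x y

/-- If all transvections fix `x`, then so does the whole group. -/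
lemma fix_all {x : X} (h : ∀ u : VV m F, u ≠ 0 → ∀ c, tS u c • x = x) (g : Spg m F) : g • x = x := by
  have hg : g ∈ Subgroup.closure (transvectionSet m F) := by
    rw [closure_transvectionSet]
    trivial
  induction hg using Subgroup.closure_induction with
  | mem t ht =>
    obtain ⟨v, c, hvc⟩ := ht
    have ht' : t = tS v c := Subtype.ext hvc
    subst ht'
    by_cases hv : v = 0
    · subst hv
      have : tS (0 : VV m F) c = 1 := by
        apply sp_ext
        intro y
        rw [tS_act, one_act, smul_zero, add_zero]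
      rw [this, one_smul]
    · exact h v hv c
  | one => exact one_smul _ _
  | mul a b _ _ ha hb => rw [mul_smul, hb, ha]
  | inv a _ ha => exact inv_smul_eq_iff.2 ha.symm

/-- If `x` is fixed by all transvections, and the action is transitive, then `X` has one point. -/
lemma card_eq_one_of_fix [Finite X] [MulAction.IsPretransitive (Spg m F) X] {x : X}
    (h : ∀ u : VV m F, u ≠ 0 → ∀ c, tS u c • x = x) : Nat.card X = 1 := by
  rw [Nat.card_eq_one_iff_unique]
  refine ⟨⟨fun a b => ?_⟩, ⟨x⟩⟩
  obtain ⟨g, rfl⟩ := MulAction.exists_smul_eq (Spg m F) x a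
  obtain ⟨g', rfl⟩ := MulAction.exists_smul_eq (Spg m F) x b
  rw [fix_all h, fix_all h]

section counting

variable [Fintype F]

lemma card_nonzero_vec [DecidablePred (fun u : VV m F => u ≠ 0)] :
    (Finset.univ.filter (fun u : VV m F => u ≠ 0)).card = Fintype.card F ^ (2 * m) - 1 := by
  classical
  have e : Finset.univ.filter (fun u : VV m F => u ≠ 0) = Finset.univ.erase 0 := by
    ext c
    simp
  rw [e, Finset.card_erase_of_mem (Finset.mem_univ _), Finset.card_univ, ← Nat.card_eq_fintype_card, card_VV]

/-- The double counting of pairs `(point, vector with transvections fixing the point)`. -/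
theorem double_count [Finite X] [MulAction.IsPretransitive (Spg m F) X] (x : X) {v : VV m F} (hv : v ≠ 0) :
    Nat.card X * Nat.card (Om x : Set (VV m F)) =
      (Fintype.card F ^ (2 * m) - 1) * Nat.card {z : X | ∀ c, tS v c • z = z} := by
  classical
  haveI : Fintype X := Fintype.ofFinite X
  have key := Finset.card_mul_eq_card_mul (fun (z : X) (u : VV m F) => ∀ c, tS u c • z = z)
    (s := Finset.univ) (t := Finset.univ.filter (fun u : VV m F => u ≠ 0))
    (m := Nat.card (Om x : Set (VV m F))) (n := Nat.card {z : X | ∀ c, tS v c • z = z}) ?_ ?_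
  · rw [Finset.card_univ, card_nonzero_vec, ← Nat.card_eq_fintype_card] at key
    exact key
  · intro z _
    obtain ⟨g, rfl⟩ := MulAction.exists_smul_eq (Spg m F) x z
    rw [Nat.card_coe_set_eq, ← Set.ncard_coe_finset]
    symm
    apply Set.ncard_congr (fun u _ => g.1 *ᵥ u)
    · intro u hu
      have := Om_act hu g
      simp only [Finset.bipartiteAbove, Finset.coe_filter, Finset.mem_filter, Finset.mem_univ, true_and]
      exact ⟨this.1, this.2⟩
    · intro u u' _ _ h
      have := congrArg (fun y => (g⁻¹).1 *ᵥ y) h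
      simpa only [inv_act_act] using this
    · intro u hu
      simp only [Finset.bipartiteAbove, Finset.coe_filter, Finset.mem_filter, Finset.mem_univ, true_and] at hu
      refine ⟨(g⁻¹).1 *ᵥ u, ?_, act_inv_act g u⟩
      have := Om_act (x := g • x) ⟨hu.1, hu.2⟩ g⁻¹
      rwa [inv_smul_smul] at this
  · intro u hu
    simp only [Finset.mem_filter, Finset.mem_univ, true_and] at hu
    obtain ⟨A, -, hA⟩ := exists_closure_ne_zero v u hv hu
    rw [Nat.card_coe_set_eq, ← Set.ncard_coe_finset]
    symm
    apply Set.ncard_congr (fun z _ => A • z)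
    · intro z hz
      simp only [Finset.bipartiteBelow, Finset.coe_filter, Finset.mem_univ, true_and]
      intro c
      rw [← hA, ← tS_conj, mul_smul, mul_smul, inv_smul_smul, hz c]
    · intro z z' _ _ h
      exact smul_left_cancel _ h
    · intro z hz
      simp only [Finset.bipartiteBelow, Finset.coe_filter, Finset.mem_univ, true_and] at hz
      refine ⟨A⁻¹ • z, ?_, smul_inv_smul A z⟩
      intro c
      have := hz c
      rw [← hA, ← tS_conj, mul_smul, mul_smul] at this
      exact (smul_eq_iff_eq_inv_smul A).1 this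

/-- The action on vectors. -/
def actV : MulAction (Spg m F) (VV m F) where
  smul g x := g.1 *ᵥ x
  one_smul := one_act
  mul_smul := mul_act

/-- The stabiliser of the line through `z`. -/
def lineStab (z : VV m F) : Subgroup (Spg m F) where
  carrier := {g | ∃ κ : F, κ ≠ 0 ∧ g.1 *ᵥ z = κ • z}
  mul_mem' := by
    rintro g g' ⟨κ, hκ, h⟩ ⟨κ', hκ', h'⟩
    refine ⟨κ' * κ, mul_ne_zero hκ' hκ, ?_⟩
    rw [mul_act, h', mulVec_smul, h, smul_smul]
  one_mem' := ⟨1, one_ne_zero, by rw [one_act, one_smul]⟩
  inv_mem' := by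
    rintro g ⟨κ, hκ, h⟩
    exact ⟨κ⁻¹, inv_ne_zero hκ, inv_levi hκ h⟩

lemma mem_lineStab {z : VV m F} {g : Spg m F} : g ∈ lineStab z ↔ ∃ κ : F, κ ≠ 0 ∧ g.1 *ᵥ z = κ • z := Iff.rfl

/-- The index of the stabiliser of a line. -/
theorem index_lineStab {z : VV m F} (hz : z ≠ 0) :
    (Fintype.card F - 1) * (lineStab z).index = Fintype.card F ^ (2 * m) - 1 := by
  classical
  letI := actV (m := m) (F := F)
  have hsmul : ∀ (g : Spg m F) (y : VV m F), g • y = g.1 *ᵥ y := fun _ _ => rfl
  let K₁ : Subgroup (Spg m F) := MulAction.stabilizer (Spg m F) z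
  have h1 : K₁.index = Fintype.card F ^ (2 * m) - 1 := by
    rw [MulAction.index_stabilizer]
    refine (congrArg Set.ncard (Set.ext (fun u => ?_))).trans
      (?_ : ((Finset.univ.filter (fun u : VV m F => u ≠ 0) : Finset (VV m F)) : Set (VV m F)).ncard = _)
    · simp only [Finset.coe_filter, Finset.mem_univ, true_and]
      constructor
      · rintro ⟨g, rfl⟩ h0
        apply hz
        have := inv_act_act g z
        change g.1 *ᵥ z = 0 at h0
        rw [h0] at this
        rw [← this]
        exact mulVec_zero _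
      · intro hu
        obtain ⟨A, -, hA⟩ := exists_closure_ne_zero z u hz hu
        exact ⟨A, hA⟩
    · rw [Set.ncard_coe_finset, card_nonzero_vec]
  have hle : K₁ ≤ lineStab z := by
    intro g hg
    refine ⟨1, one_ne_zero, ?_⟩
    rw [one_smul]
    exact hg
  have h2 : K₁.relIndex (lineStab z) = Fintype.card F - 1 := by
    have e1 : K₁.subgroupOf (lineStab z) = MulAction.stabilizer (lineStab z) z := by
      ext g
      rfl
    rw [Subgroup.relIndex, e1, MulAction.index_stabilizer]
    refine (congrArg Set.ncard (Set.ext (fun u => ?_))).trans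
      (?_ : ((fun κ : F => κ • z) '' ((Finset.univ.filter (fun c : F => c ≠ 0) : Finset F) : Set F)).ncard = _)
    · simp only [Finset.coe_filter, Finset.mem_univ, true_and]
      constructor
      · rintro ⟨⟨g, κ, hκ, h⟩, rfl⟩
        exact ⟨κ, hκ, h.symm⟩
      · rintro ⟨κ, hκ, rfl⟩
        obtain ⟨A, -, hA⟩ := exists_closure_ne_zero z (κ • z) hz (smul_ne_zero hκ hz)
        exact ⟨⟨A, κ, hκ, hA⟩, hA⟩
    · rw [Set.ncard_image_of_injective _ (smul_left_injective F hz), Set.ncard_coe_finset]
      exact Squares.card_nonzero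
  have h3 := Subgroup.relIndex_mul_index hle
  rw [h2, h1] at h3
  exact h3

end counting

end Cfsg.Agent.Lib.MinSp.Double
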