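import Cfsg.Agent.Lib.MinSp.CaseA

/-!
# Minimal index of `PSp`: the main theorem
-/

set_option autoImplicit false

namespace Cfsg.Agent.Lib.MinSp.Main

open Matrix Cfsg Cfsg.Agent.Lib.Classical.SympForm Cfsg.Agent.Lib.PresSp.Vec Cfsg.Agent.Lib.MinSp.Basic
  Cfsg.Agent.Lib.MinSp.Omega Cfsg.Agent.Lib.MinSp.Cover Cfsg.Agent.Lib.MinSp.Count Cfsg.Agent.Lib.MinSp.Perp
  Cfsg.Agent.Lib.MinSp.Squares Cfsg.Agent.Lib.MinSp.Numbers Cfsg.Agent.Lib.MinSp.Double Cfsg.Agent.Lib.MinSp.TI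
  Cfsg.Agent.Lib.MinSp.CaseA Cfsg.Agent.Lib.MinSp.CaseB Cfsg.Agent.Lib.MinSp.CaseBa

variable {m : ℕ} {F : Type*} [Field F] [Fintype F] {X : Type*} [MulAction (Spg m F) X]

local notation "⟪" x ", " y "⟫" => sympForm m F x y

/-- A hyperbolic pair. -/
lemma exists_pair (hm : 1 ≤ m) : ∃ v w : VV m F, ⟪v, w⟫ = 1 := by
  have hne : (Pi.single (Sum.inl (⟨0, by omega⟩ : Fin m)) 1 : VV m F) ≠ 0 := by
    intro h
    have := congrFun h (Sum.inl ⟨0, by omega⟩)
    simp at this
  obtain ⟨w, hw⟩ := exists_hyp hne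
  exact ⟨_, w, hw⟩

/-- **Main theorem**: a non-trivial transitive `Sp`-set is large. -/
theorem main_count (p : ℕ) [Fact p.Prime] [CharP F p] [Finite X] [MulAction.IsPretransitive (Spg m F) X]
    (hq : 3 ≤ Fintype.card F) (hm : 2 ≤ m) (hexc : ¬ (m = 2 ∧ Fintype.card F = 3)) (h2 : 2 ≤ Nat.card X)
    (hX : (Fintype.card F - 1) * Nat.card X + Fintype.card F ≤ Fintype.card F ^ (2 * m)) : False := by
  classical
  by_cases hA : ∃ (x : X) (v : VV m F), v ∈ (Om x : Set (VV m F))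
  · obtain ⟨x, v, hv⟩ := hA
    exact caseA p hq hm hv h2 hX
  · push Not at hA
    have hB : ∀ (x' : X) (u : VV m F), u ≠ 0 → ¬ ∀ c, tS u c • x' = x' := by
      intro x' u hu h
      exact hA x' u ⟨hu, h⟩
    obtain ⟨l, hl⟩ := exists_functional (F := F) (p := p)
    haveI : Nonempty X := by
      by_contra hcon
      rw [not_nonempty_iff] at hcon
      rw [Nat.card_of_isEmpty] at h2
      omega
    obtain ⟨x⟩ := ‹Nonempty X›
    have hX2 : ∀ v w : VV m F, ⟪v, w⟫ = 1 →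
        (Fintype.card F - 1) * Nat.card X + Fintype.card F ≤ Fintype.card F ^ 2 * Nat.card (Ee v w) := by
      intro v w hvw
      rw [mul_comm (Fintype.card F ^ 2), card_Ee_mul hvw]
      exact hX
    by_cases h3 : (2 : F) = 0
    · obtain ⟨v, w, hvw, hNE⟩ := exists_Ns_ne_two h3 hq hm x (hB x)
      exact caseB_core hl hq hm hexc hB hvw (hX2 v w hvw) x hNE
    · obtain ⟨v, w, hvw⟩ := exists_pair (F := F) (m := m) (by omega)
      have hNE := exists_Ns_ne_odd h3 hm x hvw (hB x v (ne_zero_of_hyp hvw))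
      exact caseB_core hl hq hm hexc hB hvw (hX2 v w hvw) x hNE

/-- The centre stabilises every line. -/
lemma center_le_lineStab {z : VV m F} (hz : z ≠ 0) : Subgroup.center (Spg m F) ≤ Double.lineStab z := by
  intro g hg
  obtain ⟨x, hx⟩ := exists_hyp hz
  have h1 := tS_conj g z 1
  rw [(Subgroup.mem_center_iff.1 hg (tS z 1)).symm, mul_inv_cancel_right] at h1
  have h2 := congrArg (fun t : Spg m F => t.1 *ᵥ x) h1
  simp only [tS_act, one_mul] at h2
  have h3 := add_left_cancel h2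
  have hxz : ⟪x, z⟫ ≠ 0 := by
    rw [fm_anti, hx]
    exact neg_ne_zero.2 one_ne_zero
  have hκ : ⟪x, g.1 *ᵥ z⟫ ≠ 0 := by
    intro h0
    rw [h0, zero_smul] at h3
    exact smul_ne_zero hxz hz h3
  refine ⟨(⟪x, g.1 *ᵥ z⟫)⁻¹ * ⟪x, z⟫, mul_ne_zero (inv_ne_zero hκ) hxz, ?_⟩
  rw [mul_smul, h3, smul_smul, inv_mul_cancel₀ hκ, one_smul]

/-- The theorem on `PSp`. -/
theorem min_index_psp (q : ℕ) (hF : Fintype.card F = q) (hm : 2 ≤ m) (hq : 3 ≤ q) (hexc : ¬ (m = 2 ∧ q = 3)) :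
    (∀ H : Subgroup (Cfsg.PSp m F), H ≠ ⊤ → (q ^ (2 * m) - 1) / (q - 1) ≤ H.index) ∧
      (∃ H : Subgroup (Cfsg.PSp m F), H.index = (q ^ (2 * m) - 1) / (q - 1)) := by
  classical
  subst hF
  obtain ⟨p, hchar⟩ := CharP.exists F
  haveI : Fact p.Prime := ⟨CharP.char_is_prime F p⟩
  constructor
  · intro H hH
    by_contra hcon
    have hlt : H.index < (Fintype.card F ^ (2 * m) - 1) / (Fintype.card F - 1) := not_le.1 hcon
    let K : Subgroup (Spg m F) := H.comap (QuotientGroup.mk' (Subgroup.center (Spg m F)))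
    have hK : K.index = H.index := Subgroup.index_comap_of_surjective H (QuotientGroup.mk'_surjective _)
    have hH1 : H.index ≠ 1 := fun h => hH (Subgroup.index_eq_one.1 h)
    have hH0 : H.index ≠ 0 := Subgroup.index_ne_zero_of_finite
    have hcardX : Nat.card (Spg m F ⧸ K) = H.index := hK
    refine main_count (X := Spg m F ⧸ K) p hq hm hexc (by omega) ?_
    rw [hcardX]
    have h1 : (Fintype.card F - 1) * ((Fintype.card F ^ (2 * m) - 1) / (Fintype.card F - 1)) ≤ Fintype.card F ^ (2 * m) - 1 :=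
      Nat.mul_div_le _ _
    have h3 : (Fintype.card F - 1) * (H.index + 1) ≤
        (Fintype.card F - 1) * ((Fintype.card F ^ (2 * m) - 1) / (Fintype.card F - 1)) := Nat.mul_le_mul_left _ hlt
    rw [mul_add, mul_one] at h3
    have h4 : 0 < Fintype.card F ^ (2 * m) := by positivity
    omega
  · obtain ⟨v, w, hvw⟩ := exists_pair (F := F) (m := m) (by omega)
    have hz := ne_zero_of_hyp hvw
    refine ⟨(Double.lineStab v).map (QuotientGroup.mk' (Subgroup.center (Spg m F))), ?_⟩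
    rw [Subgroup.index_map_eq _ (QuotientGroup.mk'_surjective _) (by
      rw [QuotientGroup.ker_mk']
      exact center_le_lineStab hz)]
    have h1 := Double.index_lineStab hz
    symm
    apply Nat.div_eq_of_eq_mul_right (by omega)
    exact h1.symm

end Cfsg.Agent.Lib.MinSp.Main
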