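import Cfsg.Agent.Lib.MinSp.CaseB

/-!
# Minimal index of `PSp`: the set of points whose transvection group fixes `x`
-/

set_option autoImplicit false

namespace Cfsg.Agent.Lib.MinSp.Omega

open Matrix Cfsg Cfsg.Agent.Lib.Classical.SympForm Cfsg.Agent.Lib.PresSp.Vec Cfsg.Agent.Lib.MinSp.Basic

variable {m : ℕ} {F : Type*} [Field F] {X : Type*} [MulAction (Spg m F) X]

local notation "⟪" x ", " y "⟫" => sympForm m F x y

/-- The vectors whose full transvection group fixes `x`. -/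
def Om (x : X) : Set (VV m F) := {u | u ≠ 0 ∧ ∀ c, tS u c • x = x}

lemma Om_smul {x : X} {u : VV m F} (hu : u ∈ Om x) {κ : F} (hκ : κ ≠ 0) : κ • u ∈ Om x := by
  refine ⟨smul_ne_zero hκ hu.1, fun c => ?_⟩
  rw [tS_smul]
  exact hu.2 _

lemma Om_act {x : X} {u : VV m F} (hu : u ∈ Om x) (g : Spg m F) : g.1 *ᵥ u ∈ Om (g • x) := by
  refine ⟨?_, fun c => ?_⟩
  · intro h
    apply hu.1
    have := inv_act_act g u
    rw [h] at this
    rw [← this]
    exact mulVec_zero _
  · rw [← tS_conj, mul_smul, mul_smul, inv_smul_smul, hu.2]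

lemma Om_fix {x : X} {u : VV m F} (hu : u ∈ Om x) {g : Spg m F} (hg : g • x = x) : g.1 *ᵥ u ∈ Om x := by
  have := Om_act hu g
  rwa [hg] at this

/-- Adding a multiple of a non-orthogonal element. -/
lemma Om_add {x : X} {a b : VV m F} (ha : a ∈ Om x) (hb : b ∈ Om x) (hab : ⟪b, a⟫ ≠ 0) (c : F) : b + c • a ∈ Om x := by
  have := Om_fix hb (ha.2 (c / ⟪b, a⟫))
  rw [tS_act, div_mul_cancel₀ _ hab] at this
  exact this

/-- The hyperbolic line spanned by two non-orthogonal elements lies in `Om`. -/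
lemma Om_line {x : X} {a b : VV m F} (ha : a ∈ Om x) (hb : b ∈ Om x) (hab : ⟪a, b⟫ ≠ 0) {α β : F}
    (h : α ≠ 0 ∨ β ≠ 0) : α • a + β • b ∈ Om x := by
  have hba : ⟪b, a⟫ ≠ 0 := by
    rw [fm_anti]
    exact neg_ne_zero.2 hab
  by_cases hβ : β = 0
  · subst hβ
    rw [zero_smul, add_zero]
    exact Om_smul ha (h.resolve_right (fun h => h rfl))
  · have h1 := Om_smul (Om_add ha hb hba (α / β)) hβ
    convert h1 using 1
    rw [smul_add, smul_smul, mul_div_cancel₀ _ hβ, add_comm]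

section hyp

variable {x : X} {a b : VV m F}

lemma pr_add (u v : VV m F) : pr a b (u + v) = pr a b u + pr a b v := by
  simp only [pr, fm_add_left]
  module

lemma pr_smul (κ : F) (u : VV m F) : pr a b (κ • u) = κ • pr a b u := by
  simp only [pr, fm_smul_left]
  module

lemma pr_a (hab : ⟪a, b⟫ = 1) : pr a b a = 0 := by
  simp [pr, hab, fm_self]

lemma pr_b (hab : ⟪a, b⟫ = 1) : pr a b b = 0 := by
  simp [pr, fm_hyp hab, fm_self]

lemma pr_line (hab : ⟪a, b⟫ = 1) {e : VV m F} (he : e ∈ Ee a b) (α β : F) : pr a b (e + α • a + β • b) = e := by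
  rw [pr_add, pr_add, pr_eq_self he, pr_smul, pr_smul, pr_a hab, pr_b hab]
  simp

lemma step1 (hab : ⟪a, b⟫ = 1) (hb : b ∈ Om x) {e : VV m F} (he : e ∈ Ee a b) {α β : F} (hα : α ≠ 0)
    (h : e + α • a + β • b ∈ Om x) (β' : F) : e + α • a + β' • b ∈ Om x := by
  have h1 := Om_fix h (hb.2 ((β' - β) / α))
  rw [tS_act] at h1
  have e1 : ⟪e + α • a + β • b, b⟫ = α := by
    simp only [fm_add_left, fm_smul_left, he.2, fm_self, hab]
    ring
  rw [e1, div_mul_cancel₀ _ hα] at h1
  convert h1 using 1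
  module

lemma step2 (hab : ⟪a, b⟫ = 1) (ha : a ∈ Om x) {e : VV m F} (he : e ∈ Ee a b) {α β : F} (hβ : β ≠ 0)
    (h : e + α • a + β • b ∈ Om x) (α' : F) : e + α' • a + β • b ∈ Om x := by
  have h1 := Om_fix h (ha.2 ((α - α') / β))
  rw [tS_act] at h1
  have e1 : ⟪e + α • a + β • b, a⟫ = -β := by
    simp only [fm_add_left, fm_smul_left, he.1, fm_self, fm_hyp hab]
    ring
  rw [e1] at h1
  have e2 : (α - α') / β * -β = α' - α := by
    field_simp
    ring
  rw [e2] at h1
  convert h1 using 1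
  module

/-- Transitivity of `SL₂(a, b)` on the non-zero vectors of the hyperbolic line. -/
lemma step_all (hab : ⟪a, b⟫ = 1) (ha : a ∈ Om x) (hb : b ∈ Om x) {e : VV m F} (he : e ∈ Ee a b) {α₀ β₀ : F}
    (h0 : α₀ ≠ 0 ∨ β₀ ≠ 0) (h : e + α₀ • a + β₀ • b ∈ Om x) {α β : F} (h1 : α ≠ 0 ∨ β ≠ 0) :
    e + α • a + β • b ∈ Om x := by
  have hone : ∀ α' : F, e + α' • a + (1 : F) • b ∈ Om x := by
    intro α'
    by_cases hα₀ : α₀ = 0
    · have hβ₀ : β₀ ≠ 0 := h0.resolve_left (fun h => h hα₀)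
      have h2 := step2 hab ha he hβ₀ h 1
      have h3 := step1 hab hb he one_ne_zero h2 1
      exact step2 hab ha he one_ne_zero h3 α'
    · have h2 := step1 hab hb he hα₀ h 1
      exact step2 hab ha he one_ne_zero h2 α'
  by_cases hα : α = 0
  · have hβ : β ≠ 0 := h1.resolve_left (fun h => h hα)
    have h2 := step1 hab hb he one_ne_zero (hone 1) β
    rw [hα]
    exact step2 hab ha he hβ h2 0
  · exact step1 hab hb he hα (hone α) β

/-- The subspace `S(a, b)`. -/
theorem exists_S [Fintype F] (hq : 3 ≤ Fintype.card F) (hab : ⟪a, b⟫ = 1) (ha : a ∈ Om x) (hb : b ∈ Om x) :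
    ∃ S : Submodule F (VV m F), ∀ z, z ∈ S ↔ pr a b z + a ∈ Om x := by
  have h0 : (pr a b (0 : VV m F) + a) ∈ Om x := by
    have : pr a b (0 : VV m F) = 0 := by simp [pr, fm_zero_left]
    rw [this, zero_add]
    exact ha
  have haddE : ∀ e e' : VV m F, e ∈ Ee a b → e' ∈ Ee a b → e + a ∈ Om x → e' + a ∈ Om x → e + e' + a ∈ Om x := by
    intro e e' he he' h1 h2
    obtain ⟨c, hc0, hc1⟩ := Cover.exists_ne_two hq (0 : F) (-⟪e, e'⟫)
    have h3 : e' + (0 : F) • a + c • b ∈ Om x := by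
      apply step_all hab ha hb he' (α₀ := 1) (β₀ := 0) (Or.inl one_ne_zero)
      · simpa using h2
      · exact Or.inr hc0
    have h3' : e' + c • b ∈ Om x := by simpa using h3
    have h4 : ⟪e + a, e' + c • b⟫ ≠ 0 := by
      simp only [fm_add_left, fm_add_right, fm_smul_right, hab, fm_comm0 he'.1, he.2]
      intro h
      apply hc1
      linear_combination h
    have h5 := Om_line h1 h3' h4 (α := 1) (β := 1) (Or.inl one_ne_zero)
    have h6 : e + e' + (1 : F) • a + c • b ∈ Om x := by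
      convert h5 using 1
      module
    have h7 := step_all hab ha hb ((Ee a b).add_mem he he') (Or.inr hc0) h6 (α := 1) (β := 0) (Or.inl one_ne_zero)
    simpa using h7
  refine ⟨{ carrier := {z | pr a b z + a ∈ Om x}
            add_mem' := ?_
            zero_mem' := h0
            smul_mem' := ?_ }, fun z => Iff.rfl⟩
  · intro z z' hz hz'
    change pr a b (z + z') + a ∈ Om x
    rw [pr_add]
    exact haddE _ _ (pr_mem hab z) (pr_mem hab z') hz hz'
  · intro κ z hz
    change pr a b (κ • z) + a ∈ Om x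
    rw [pr_smul]
    by_cases hκ : κ = 0
    · subst hκ
      rw [zero_smul, zero_add]
      exact ha
    · have h1 := Om_smul hz hκ
      have h2 : κ • pr a b z + κ • a + (0 : F) • b ∈ Om x := by
        rw [smul_add] at h1
        simpa using h1
      have h3 := step_all hab ha hb ((Ee a b).smul_mem κ (pr_mem hab z)) (Or.inl hκ) h2 (α := 1) (β := 0) (Or.inl one_ne_zero)
      simpa using h3

variable {S : Submodule F (VV m F)}

lemma a_mem_S (hab : ⟪a, b⟫ = 1) (ha : a ∈ Om x) (hS : ∀ z, z ∈ S ↔ pr a b z + a ∈ Om x) : a ∈ S := by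
  rw [hS, pr_a hab, zero_add]
  exact ha

lemma b_mem_S (hab : ⟪a, b⟫ = 1) (ha : a ∈ Om x) (hS : ∀ z, z ∈ S ↔ pr a b z + a ∈ Om x) : b ∈ S := by
  rw [hS, pr_b hab, zero_add]
  exact ha

/-- The non-radical vectors of `S` are in `Om`. -/
theorem S_sub_Om (hab : ⟪a, b⟫ = 1) (ha : a ∈ Om x) (hb : b ∈ Om x) (hS : ∀ z, z ∈ S ↔ pr a b z + a ∈ Om x)
    {z s : VV m F} (hz : z ∈ S) (hs : s ∈ S) (hzs : ⟪z, s⟫ ≠ 0) : z ∈ Om x := by
  have he := pr_mem hab z
  have hz' : pr a b z + a ∈ Om x := (hS z).1 hz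
  have hz1 : pr a b z + (1 : F) • a + (0 : F) • b ∈ Om x := by simpa using hz'
  have hdec : z = pr a b z + ⟪z, b⟫ • a + (-⟪z, a⟫) • b := by
    have := eq_pr_add a b z
    rw [neg_smul]
    nth_rewrite 1 [this]
    abel
  by_cases hπ : ⟪z, b⟫ ≠ 0 ∨ -⟪z, a⟫ ≠ 0
  · rw [hdec]
    exact step_all hab ha hb he (Or.inl one_ne_zero) hz1 hπ
  · push Not at hπ
    have e1 : pr a b z = z := by
      rw [pr, hπ.1, neg_eq_zero.1 hπ.2]
      simp
    have hz2 : z ∈ Ee a b := by rw [← e1]; exact he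
    -- the second vector
    have hs' := pr_mem hab s
    have e2 : ⟪z, pr a b s⟫ = ⟪z, s⟫ := fm_pr hz2 s
    have h1 : pr a b s + a ∈ Om x := (hS s).1 hs
    have hm1 : pr a b s + (-1 : F) • a + (0 : F) • b ∈ Om x := by
      refine step_all hab ha hb hs' (α₀ := 1) (β₀ := 0) (Or.inl one_ne_zero) (by simpa using h1) (Or.inl (by simp))
    have hm1' : pr a b s - a ∈ Om x := by
      have : pr a b s - a = pr a b s + (-1 : F) • a + (0 : F) • b := by module
      rw [this]
      exact hm1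
    have hd : z - pr a b s ∈ S := by
      rw [hS]
      have e3 : pr a b (z - pr a b s) = pr a b z - pr a b s := by
        have : z - pr a b s = z + (-1 : F) • pr a b s := by module
        rw [this, pr_add, pr_smul, pr_eq_self hs']
        module
      rw [e3, e1]
      have hzS := (hS z).1 hz
      rw [e1] at hzS
      -- `z - e₂` is in the subspace
      have h5 : (-1 : F) • s ∈ S := S.smul_mem _ hs
      have h6 : z + (-1 : F) • s ∈ S := S.add_mem hz h5
      have h7 := (hS _).1 h6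
      rw [pr_add, pr_smul, e1] at h7
      convert h7 using 2
      module
    have h8 := (hS _).1 hd
    have e3 : pr a b (z - pr a b s) = z - pr a b s := by
      apply pr_eq_self
      exact (Ee a b).sub_mem hz2 hs'
    rw [e3] at h8
    have h9 : ⟪z - pr a b s + a, pr a b s - a⟫ ≠ 0 := by
      simp only [fm_add_left, fm_sub_left, fm_sub_right, fm_self, hz2.1, hs'.1, fm_comm0 hs'.1]
      rw [e2]
      simpa using hzs
    have h10 := Om_line h8 hm1' h9 (α := 1) (β := 1) (Or.inl one_ne_zero)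
    convert h10 using 1
    module

/-- Every element of `Om` lies in `S` or in the orthogonal complement of `S`. -/
theorem Om_sub (hab : ⟪a, b⟫ = 1) (ha : a ∈ Om x) (hb : b ∈ Om x) (hS : ∀ z, z ∈ S ↔ pr a b z + a ∈ Om x)
    {z : VV m F} (hz : z ∈ Om x) : z ∈ S ∨ ∀ s ∈ S, ⟪z, s⟫ = 0 := by
  have he := pr_mem hab z
  have hdec : z = pr a b z + ⟪z, b⟫ • a + (-⟪z, a⟫) • b := by
    have := eq_pr_add a b z
    rw [neg_smul]
    nth_rewrite 1 [this]
    abel
  by_cases hπ : ⟪z, b⟫ ≠ 0 ∨ -⟪z, a⟫ ≠ 0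
  · left
    rw [hS]
    have h1 : pr a b z + ⟪z, b⟫ • a + (-⟪z, a⟫) • b ∈ Om x := by
      rw [← hdec]
      exact hz
    have h2 := step_all hab ha hb he hπ h1 (α := 1) (β := 0) (Or.inl one_ne_zero)
    simpa using h2
  · push Not at hπ
    have e1 : pr a b z = z := by
      rw [pr, hπ.1, neg_eq_zero.1 hπ.2]
      simp
    have hz2 : z ∈ Ee a b := by rw [← e1]; exact he
    by_cases hs : ∀ s ∈ S, ⟪z, s⟫ = 0
    · exact Or.inr hs
    · left
      push Not at hs
      obtain ⟨s, hs, hzs⟩ := hs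
      have hs' := pr_mem hab s
      have e2 : ⟪z, pr a b s⟫ = ⟪z, s⟫ := fm_pr hz2 s
      have h1 : pr a b s + a ∈ Om x := (hS s).1 hs
      have h2 : ⟪z, pr a b s + a⟫ ≠ 0 := by
        rw [fm_add_right, e2, hz2.1, add_zero]
        exact hzs
      have h3 := Om_line hz h1 h2 (α := 1) (β := 1) (Or.inl one_ne_zero)
      have h4 : z + pr a b s + a ∈ Om x := by
        convert h3 using 1
        module
      have h5 : z + pr a b s ∈ S := by
        rw [hS, pr_eq_self ((Ee a b).add_mem hz2 hs')]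
        exact h4
      have h6 : pr a b s ∈ S := by
        rw [hS, pr_eq_self hs']
        exact h1
      have h7 := S.sub_mem h5 h6
      rwa [add_sub_cancel_right] at h7

end hyp

end Cfsg.Agent.Lib.MinSp.Omega
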