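import Cfsg.Agent.Lib.MinSp.Basic

/-!
# Duality for additive subgroups with respect to a non-degenerate biadditive pairing to `ZMod p`
-/

set_option autoImplicit false

namespace Cfsg.Agent.Lib.MinSp.Perp

open Matrix Cfsg Cfsg.Agent.Lib.Classical.SympForm Cfsg.Agent.Lib.PresSp.Vec Cfsg.Agent.Lib.MinSp.Basic

section general

variable {W : Type*} [AddCommGroup W] {p : ℕ} [Fact p.Prime]

lemma hom_zsmul [Module (ZMod p) W] (f : W →+ ZMod p) (c : ZMod p) (x : W) : f (c • x) = c * f x := by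
  obtain ⟨k, rfl⟩ := ZMod.natCast_zmod_surjective c
  rw [Nat.cast_smul_eq_nsmul, map_nsmul, nsmul_eq_mul]

lemma bilin_card [Module (ZMod p) W] [Finite W] (B : LinearMap.BilinForm (ZMod p) W) (hB : B.Nondegenerate)
    (M : Submodule (ZMod p) W) : Nat.card M * Nat.card (B.orthogonal M) = Nat.card W := by
  have hfd : FiniteDimensional (ZMod p) W := Module.Finite.of_finite
  have hf := LinearMap.BilinForm.finrank_orthogonal hB M
  have hle : Module.finrank (ZMod p) M ≤ Module.finrank (ZMod p) W := Submodule.finrank_le M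
  have h1 := Module.natCard_eq_pow_finrank (K := ZMod p) (V := M)
  have h2 := Module.natCard_eq_pow_finrank (K := ZMod p) (V := B.orthogonal M)
  have h3 := Module.natCard_eq_pow_finrank (K := ZMod p) (V := W)
  rw [Nat.card_zmod] at h1 h2 h3
  rw [h1, h2, h3, ← pow_add, hf]
  congr 1
  omega

lemma pairing_card_aux [Module (ZMod p) W] [Finite W] (β : W →+ W →+ ZMod p)
    (hr : ∀ x y, β x y = 0 → β y x = 0) (hnd : ∀ x, (∀ y, β x y = 0) → x = 0) (M : AddSubgroup W) :
    Nat.card M * Nat.card {z // ∀ y ∈ M, β z y = 0} = Nat.card W := by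
  classical
  let B : LinearMap.BilinForm (ZMod p) W := LinearMap.mk₂ (ZMod p) (fun x y => β x y)
    (fun x x' y => by simp) (fun c x y => by
      change β.flip y (c • x) = c * β.flip y x
      exact hom_zsmul _ _ _)
    (fun x y y' => by simp) (fun c x y => by
      rw [hom_zsmul (β x) c y]
      simp)
  have hrefl : B.IsRefl := fun x y h => hr x y h
  have hsep : LinearMap.SeparatingLeft B := fun x hx => hnd x hx
  have hB : B.Nondegenerate := (LinearMap.IsRefl.nondegenerate_iff_separatingLeft hrefl).2 hsep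
  have key := bilin_card B hB (AddSubgroup.toZModSubmodule p M)
  have h2 : Nat.card {z // ∀ y ∈ M, β z y = 0} = Nat.card (B.orthogonal (AddSubgroup.toZModSubmodule p M)) := by
    apply Nat.card_congr
    refine Equiv.subtypeEquivRight (fun z => ?_)
    constructor
    · intro hz y hy
      exact hr _ _ (hz y hy)
    · intro hz y hy
      exact hr _ _ (hz y hy)
  rw [h2, ← key]
  rfl

/-- The size formula for the orthogonal complement of an additive subgroup. -/
theorem pairing_card [Finite W] (hp : ∀ x : W, p • x = 0) (β : W →+ W →+ ZMod p)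
    (hr : ∀ x y, β x y = 0 → β y x = 0) (hnd : ∀ x, (∀ y, β x y = 0) → x = 0) (M : AddSubgroup W) :
    Nat.card M * Nat.card {z // ∀ y ∈ M, β z y = 0} = Nat.card W := by
  letI : Module (ZMod p) W := AddCommGroup.zmodModule hp
  exact pairing_card_aux β hr hnd M

end general

variable {m : ℕ} {F : Type*} [Field F] {p : ℕ} [Fact p.Prime]

local notation "⟪" x ", " y "⟫" => sympForm m F x y

/-- A non-zero additive functional. -/
lemma exists_functional [CharP F p] : ∃ l : F →+ ZMod p, l ≠ 0 := by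
  classical
  letI : Algebra (ZMod p) F := ZMod.algebra F p
  have h1 : (1 : F) ≠ 0 := one_ne_zero
  have : ¬ ∀ φ : Module.Dual (ZMod p) F, φ 1 = 0 := by
    rw [Module.forall_dual_apply_eq_zero_iff (ZMod p) (1 : F)]
    exact h1
  push Not at this
  obtain ⟨φ, hφ⟩ := this
  refine ⟨φ.toAddMonoidHom, fun h => hφ ?_⟩
  have := DFunLike.congr_fun h 1
  simpa using this

lemma exists_l_ne {l : F →+ ZMod p} (hl : l ≠ 0) : ∃ a : F, l a ≠ 0 := by
  by_contra hcon
  push Not at hcon
  exact hl (AddMonoidHom.ext hcon)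

/-- A non-zero element has a non-vanishing product. -/
lemma exists_l_mul_ne {l : F →+ ZMod p} (hl : l ≠ 0) {η : F} (hη : η ≠ 0) : ∃ a : F, l (η * a) ≠ 0 := by
  obtain ⟨a, ha⟩ := exists_l_ne hl
  exact ⟨η⁻¹ * a, by rwa [mul_inv_cancel_left₀ hη]⟩

/-- The orthogonal complement in `F` with respect to `(a, b) ↦ l (a * b)`. -/
def perpF (l : F →+ ZMod p) (R : AddSubgroup F) : AddSubgroup F where
  carrier := {η | ∀ a ∈ R, l (η * a) = 0}
  add_mem' := by
    intro x y hx hy a ha
    rw [add_mul, map_add, hx a ha, hy a ha, add_zero]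
  zero_mem' := by
    intro a _
    simp
  neg_mem' := by
    intro x hx a ha
    rw [neg_mul, map_neg, hx a ha, neg_zero]

lemma mem_perpF {l : F →+ ZMod p} {R : AddSubgroup F} {η : F} : η ∈ perpF l R ↔ ∀ a ∈ R, l (η * a) = 0 := Iff.rfl

section card

variable [Fintype F] [CharP F p]

theorem card_perpF {l : F →+ ZMod p} (hl : l ≠ 0) (R : AddSubgroup F) :
    Nat.card R * Nat.card (perpF l R) = Fintype.card F := by
  have hp : ∀ x : F, p • x = 0 := fun x => by
    rw [nsmul_eq_mul, CharP.cast_eq_zero, zero_mul]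
  let β : F →+ F →+ ZMod p := AddMonoidHom.mk' (fun x => (l.comp (AddMonoidHom.mulLeft x))) (fun x y => by
    ext a
    simp [add_mul])
  have := pairing_card hp β (fun x y h => by
    have e : ∀ x y, β x y = l (x * y) := fun _ _ => rfl
    rw [e] at h ⊢
    rwa [mul_comm]) (fun x hx => by
      by_contra hne
      obtain ⟨a, ha⟩ := exists_l_mul_ne hl hne
      exact ha (hx a)) R
  rw [← Nat.card_eq_fintype_card, ← this]
  rfl

end card

/-- The orthogonal complement inside `E` with respect to `l ∘ f`. -/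
def perpE (l : F →+ ZMod p) (v w : VV m F) (N : AddSubgroup (VV m F)) : AddSubgroup (VV m F) where
  carrier := {z | z ∈ Ee v w ∧ ∀ y ∈ N, l ⟪z, y⟫ = 0}
  add_mem' := by
    rintro a b ⟨h1, h2⟩ ⟨h3, h4⟩
    refine ⟨(Ee v w).add_mem h1 h3, fun y hy => ?_⟩
    rw [fm_add_left, map_add, h2 y hy, h4 y hy, add_zero]
  zero_mem' := ⟨(Ee v w).zero_mem, fun y _ => by rw [fm_zero_left, map_zero]⟩
  neg_mem' := by
    rintro a ⟨h1, h2⟩
    refine ⟨(Ee v w).neg_mem h1, fun y hy => ?_⟩
    rw [fm_neg_left, map_neg, h2 y hy, neg_zero]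

lemma mem_perpE {l : F →+ ZMod p} {v w : VV m F} {N : AddSubgroup (VV m F)} {z : VV m F} :
    z ∈ perpE l v w N ↔ z ∈ Ee v w ∧ ∀ y ∈ N, l ⟪z, y⟫ = 0 := Iff.rfl

section card

variable [Fintype F] [CharP F p]

theorem card_perpE {l : F →+ ZMod p} (hl : l ≠ 0) {v w : VV m F} (h : ⟪v, w⟫ = 1) (N : AddSubgroup (VV m F))
    (hN : ∀ y ∈ N, y ∈ Ee v w) :
    Nat.card N * Nat.card (perpE l v w N) = Nat.card (Ee v w) := by
  classical
  have hp : ∀ x : Ee v w, p • x = 0 := fun x => by
    ext i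
    have : ((p • x : Ee v w) : VV m F) i = p • (x : VV m F) i := by simp
    rw [this, nsmul_eq_mul, CharP.cast_eq_zero, zero_mul]
    simp
  let β : Ee v w →+ Ee v w →+ ZMod p := AddMonoidHom.mk' (fun x =>
    AddMonoidHom.mk' (fun y => l ⟪(x : VV m F), (y : VV m F)⟫) (fun y y' => by
      rw [Submodule.coe_add, fm_add_right, map_add])) (fun x y => by
    ext a
    simp [fm_add_left])
  have hβ : ∀ x y, β x y = l ⟪(x : VV m F), (y : VV m F)⟫ := fun _ _ => rfl
  have := pairing_card hp β (fun x y hxy => by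
    rw [hβ] at hxy ⊢
    rw [fm_anti, map_neg, hxy, neg_zero]) (fun x hx => by
      by_contra hne
      have hne' : (x : VV m F) ≠ 0 := fun h0 => hne (Subtype.ext h0)
      obtain ⟨y', hy', h1⟩ := exists_Ee_hyp h x.2 hne'
      obtain ⟨a, ha⟩ := exists_l_ne hl
      apply ha
      have h2 := hx ⟨a • y', (Ee v w).smul_mem a hy'⟩
      rw [hβ] at h2
      simp only [fm_smul_right, h1, mul_one] at h2
      exact h2) (N.comap (Ee v w).subtype.toAddMonoidHom)
  have e1 : Nat.card (N.comap (Ee v w).subtype.toAddMonoidHom) = Nat.card N := by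
    apply Nat.card_congr
    exact ⟨fun y => ⟨y.1.1, y.2⟩, fun y => ⟨⟨y.1, hN y.1 y.2⟩, y.2⟩, fun y => rfl, fun y => rfl⟩
  have e2 : Nat.card {z : Ee v w // ∀ y ∈ N.comap (Ee v w).subtype.toAddMonoidHom, β z y = 0} =
      Nat.card (perpE l v w N) := by
    apply Nat.card_congr
    refine ⟨fun z => ⟨z.1.1, z.1.2, fun y hy => z.2 ⟨y, hN y hy⟩ hy⟩,
      fun z => ⟨⟨z.1, z.2.1⟩, fun y hy => z.2.2 y.1 hy⟩, fun z => rfl, fun z => rfl⟩
  rw [e1, e2] at this
  exact this

end card

end Cfsg.Agent.Lib.MinSp.Perp
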