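import Cfsg.Agent.Lib.MinSp.Cover

/-!
# Minimal index of `PSp`: squares, the dual of `R`, the orbit size
-/

set_option autoImplicit false

namespace Cfsg.Agent.Lib.MinSp.Squares

open Matrix Cfsg Cfsg.Agent.Lib.Classical.SympForm Cfsg.Agent.Lib.PresSp.Vec Cfsg.Agent.Lib.MinSp.Basic
  Cfsg.Agent.Lib.MinSp.Perp Cfsg.Agent.Lib.MinSp.Count Cfsg.Agent.Lib.MinSp.Cover

variable {m : ℕ} {F : Type*} [Field F] {X : Type*} [MulAction (Spg m F) X]

local notation "⟪" x ", " y "⟫" => sympForm m F x y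

variable [Fintype F]

/-- The non-zero squares. -/
def SqSet (F : Type*) [Field F] : Set F := {a | ∃ c : F, c ≠ 0 ∧ c ^ 2 = a}

lemma card_nonzero [DecidablePred (fun c : F => c ≠ 0)] :
    (Finset.univ.filter (fun c : F => c ≠ 0)).card = Fintype.card F - 1 := by
  classical
  have e : Finset.univ.filter (fun c : F => c ≠ 0) = Finset.univ.erase 0 := by
    ext c
    simp
  rw [e, Finset.card_erase_of_mem (Finset.mem_univ _), Finset.card_univ]

lemma card_SqSet_eq [DecidableEq F] [DecidablePred (fun c : F => c ≠ 0)] :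
    Nat.card (SqSet F) = ((Finset.univ.filter (fun c : F => c ≠ 0)).image (fun c => c ^ 2)).card := by
  rw [Nat.card_coe_set_eq, ← Set.ncard_coe_finset]
  congr 1
  ext a
  simp [SqSet]

/-- At least half of the non-zero elements are squares. -/
lemma card_Sqs_ge : Fintype.card F - 1 ≤ 2 * Nat.card (SqSet F) := by
  classical
  rw [card_SqSet_eq, ← card_nonzero]
  apply Finset.card_le_mul_card_image
  intro a ha
  obtain ⟨c, -, rfl⟩ := Finset.mem_image.1 ha
  have : (Finset.univ.filter (fun c : F => c ≠ 0)).filter (fun x => x ^ 2 = c ^ 2) ⊆ {c, -c} := by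
    intro x hx
    simp only [Finset.mem_filter] at hx
    simp only [Finset.mem_insert, Finset.mem_singleton]
    exact sq_eq_sq_iff_eq_or_eq_neg.1 hx.2
  exact (Finset.card_le_card this).trans Finset.card_le_two

/-- In characteristic two all the non-zero elements are squares. -/
lemma card_Sqs_two (h2 : (2 : F) = 0) : Fintype.card F - 1 ≤ Nat.card (SqSet F) := by
  classical
  rw [card_SqSet_eq, ← card_nonzero]
  apply le_of_eq
  symm
  apply Finset.card_image_of_injOn
  intro a _ b _ hab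
  simp only at hab
  have : (a - b) ^ 2 = 0 := by
    have e : (a - b) ^ 2 = a ^ 2 + b ^ 2 - 2 * (a * b) := by ring
    rw [e, h2, ← hab]
    have e2 : a ^ 2 + a ^ 2 = 2 * a ^ 2 := by ring
    rw [e2, h2]
    ring
  exact sub_eq_zero.1 (pow_eq_zero_iff (two_ne_zero) |>.1 this)

variable {p : ℕ} [Fact p.Prime] [CharP F p]

/-- The multiples of the dual of `R` by squares cover the squares. -/
theorem coverF {l : F →+ ZMod p} (R : AddSubgroup F) {ρ : F} (hρ : ρ ∈ perpF l R) (hρ0 : ρ ≠ 0) :
    Nat.card (SqSet F) ≤ Nat.card (Rconj (R : Set F)) * (Nat.card (perpF l R) - 1) := by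
  classical
  let s : Finset F := (Set.toFinite (SqSet F)).toFinset.image (fun c => c * ρ)
  let t : Finset (Set F) := (Set.toFinite (Rconj (R : Set F))).toFinset
  have hs : s.card = Nat.card (SqSet F) := by
    rw [Nat.card_eq_card_finite_toFinset (Set.toFinite (SqSet F))]
    apply Finset.card_image_of_injective
    intro a b hab
    exact mul_right_cancel₀ hρ0 hab
  have ht : t.card = Nat.card (Rconj (R : Set F)) := (Nat.card_eq_card_finite_toFinset _).symm
  have key := Finset.card_mul_le_card_mul (fun (z : F) (T : Set F) => ∀ a ∈ T, l (z * a) = 0) (s := s) (t := t) (m := 1)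
    (n := Nat.card (perpF l R) - 1) ?_ ?_
  · rw [hs, ht, mul_one] at key
    exact key
  · intro z hz
    obtain ⟨_, hc, rfl⟩ := Finset.mem_image.1 hz
    rw [Set.Finite.mem_toFinset] at hc
    obtain ⟨c, hc0, rfl⟩ := hc
    rw [Nat.succ_le_iff, Finset.card_pos]
    refine ⟨(fun a => (c⁻¹) ^ 2 * a) '' (R : Set F), ?_⟩
    simp only [Finset.bipartiteAbove, Finset.mem_filter, t, Set.Finite.mem_toFinset]
    refine ⟨⟨c⁻¹, inv_ne_zero hc0, rfl⟩, ?_⟩
    rintro _ ⟨a, ha, rfl⟩
    have e : c ^ 2 * ρ * ((c⁻¹) ^ 2 * a) = ρ * a := by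
      field_simp
    simp only
    rw [e]
    exact hρ a ha
  · intro T hT
    simp only [t, Set.Finite.mem_toFinset] at hT
    obtain ⟨c, hc0, rfl⟩ := hT
    rw [← card_filter_ne (perpF l R)]
    apply Finset.card_le_card_of_injOn (fun z => c ^ 2 * z)
    · intro z hz
      simp only [Finset.bipartiteBelow, Finset.coe_filter] at hz
      obtain ⟨hzs, hz⟩ := hz
      have hz0 : z ≠ 0 := by
        obtain ⟨_, hc, rfl⟩ := Finset.mem_image.1 hzs
        rw [Set.Finite.mem_toFinset] at hc
        obtain ⟨c', hc0', rfl⟩ := hc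
        exact mul_ne_zero (pow_ne_zero 2 hc0') hρ0
      simp only [Finset.coe_filter, Finset.mem_univ, true_and]
      refine ⟨fun a ha => ?_, mul_ne_zero (pow_ne_zero 2 hc0) hz0⟩
      have := hz _ ⟨a, ha, rfl⟩
      simp only at this
      rwa [show z * (c ^ 2 * a) = c ^ 2 * z * a by ring] at this
    · intro z _ z' _ h
      exact mul_left_cancel₀ (pow_ne_zero 2 hc0) h

/-- The size of the orbit. -/
theorem card_Orb_eq {l : F →+ ZMod p} (hl : l ≠ 0) {v w : VV m F} (hvw : ⟪v, w⟫ = 1) (x : X) :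
    Nat.card (Orb v w x) = Nat.card (perpF l (Rs v x)) * Nat.card (perpE l v w (Ns v w x)) := by
  have h1 := card_Orb hvw x
  have h2 := card_perpF hl (Rs v x)
  have h3 := card_perpE hl hvw (Ns v w x) (fun y hy => hy.1)
  have hR : 0 < Nat.card (Rs v x) := Nat.card_pos
  have hN : 0 < Nat.card (Ns v w x) := Nat.card_pos
  have h4 : 0 < Nat.card (Rs v x) * Nat.card (Ns v w x) := Nat.mul_pos hR hN
  apply Nat.eq_of_mul_eq_mul_right h4
  rw [h1, ← h2, ← h3]
  ring

/-- The basic lower bound. -/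
theorem count_orbit [Finite X] {l : F →+ ZMod p} (hl : l ≠ 0) {v w : VV m F} (hvw : ⟪v, w⟫ = 1) (x : X) :
    Nat.card (Rconj (Rs v x : Set F)) * Nat.card (Aconj v w (perpE l v w (Ns v w x) : Set (VV m F))) *
      (Nat.card (perpF l (Rs v x)) * Nat.card (perpE l v w (Ns v w x))) ≤ Nat.card X := by
  have := count1 (l := l) hvw (Rs v x) (Ns v w x) (fun y hy => hy.1) (Set.univ : Set X) (Orb v w x)
    (fun _ _ _ _ _ _ _ => Set.mem_univ _) (fun z hz => ⟨Set.mem_univ _, Rs_Orb hz, Ns_Orb hz⟩)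
  rw [card_Orb_eq hl hvw x, Nat.card_univ] at this
  exact this

/-- Two `Q_v`-orbits with the same invariants. -/
theorem count_two_orbits [Finite X] {l : F →+ ZMod p} (hl : l ≠ 0) {v w : VV m F} (hvw : ⟪v, w⟫ = 1) (x z : X)
    (hz : z ∉ Orb v w x) (h1 : Rs v z = Rs v x) (h2 : Ns v w z = Ns v w x) :
    Nat.card (Rconj (Rs v x : Set F)) * Nat.card (Aconj v w (perpE l v w (Ns v w x) : Set (VV m F))) *
      (2 * (Nat.card (perpF l (Rs v x)) * Nat.card (perpE l v w (Ns v w x)))) ≤ Nat.card X := by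
  classical
  have hdis : Disjoint (Orb v w x) (Orb v w z) := by
    rcases MulAction.orbit.eq_or_disjoint (G := Qq v w) x z with h | h
    · exfalso
      apply hz
      change z ∈ MulAction.orbit (Qq v w) x
      rw [h]
      exact MulAction.mem_orbit_self z
    · exact h
  have hc : Nat.card ((Orb v w x ∪ Orb v w z : Set X)) = 2 * (Nat.card (perpF l (Rs v x)) * Nat.card (perpE l v w (Ns v w x))) := by
    rw [Nat.card_coe_set_eq, Set.ncard_union_eq hdis (Set.toFinite _) (Set.toFinite _), ← Nat.card_coe_set_eq,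
      ← Nat.card_coe_set_eq, card_Orb_eq hl hvw x, card_Orb_eq hl hvw z, h1, h2]
    ring
  have := count1 (l := l) hvw (Rs v x) (Ns v w x) (fun y hy => hy.1) (Set.univ : Set X) (Orb v w x ∪ Orb v w z)
    (fun _ _ _ _ _ _ _ => Set.mem_univ _) (by
      rintro y (hy | hy)
      · exact ⟨Set.mem_univ _, Rs_Orb hy, Ns_Orb hy⟩
      · exact ⟨Set.mem_univ _, (Rs_Orb hy).trans h1, (Ns_Orb hy).trans h2⟩)
  rw [hc, Nat.card_univ] at this
  exact this

/-- The double orthogonal. -/
theorem perpE_perpE {l : F →+ ZMod p} (hl : l ≠ 0) {v w : VV m F} (hvw : ⟪v, w⟫ = 1) (N : AddSubgroup (VV m F))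
    (hN : ∀ y ∈ N, y ∈ Ee v w) : perpE l v w (perpE l v w N) = N := by
  symm
  have hle : N ≤ perpE l v w (perpE l v w N) := by
    intro y hy
    refine ⟨hN y hy, fun z hz => ?_⟩
    have := hz.2 y hy
    rw [fm_anti, map_neg, this, neg_zero]
  have h1 := card_perpE hl hvw N hN
  have h2 := card_perpE hl hvw (perpE l v w N) (fun y hy => hy.1)
  have h3 : Nat.card N = Nat.card (perpE l v w (perpE l v w N)) := by
    have h4 : 0 < Nat.card (perpE l v w N) := Nat.card_pos
    apply Nat.eq_of_mul_eq_mul_right h4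
    rw [h1, ← h2]
    ring
  have hf : Finite (perpE l v w (perpE l v w N)) := inferInstance
  apply SetLike.coe_injective
  apply Set.eq_of_subset_of_ncard_le hle
  rw [← Nat.card_coe_set_eq, ← Nat.card_coe_set_eq]
  exact h3.symm.le

end Cfsg.Agent.Lib.MinSp.Squares
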