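import Cfsg.Agent.Lib.MinSp.Double

/-!
# Minimal index of `PSp`: stabilisers of totally isotropic subspaces
-/

set_option autoImplicit false

namespace Cfsg.Agent.Lib.MinSp.TI

open Matrix Cfsg Cfsg.Agent.Lib.Classical.SympForm Cfsg.Agent.Lib.PresSp.Vec Cfsg.Agent.Lib.MinSp.Basic
  Cfsg.Agent.Lib.MinSp.Omega Cfsg.Agent.Lib.MinSp.Cover Cfsg.Agent.Lib.MinSp.Count Cfsg.Agent.Lib.MinSp.Perp
  Cfsg.Agent.Lib.MinSp.Squares Cfsg.Agent.Lib.MinSp.Numbers Cfsg.Agent.Lib.MinSp.Double

variable {m : ℕ} {F : Type*} [Field F]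

local notation "⟪" x ", " y "⟫" => sympForm m F x y

/-- The stabiliser of a subspace. -/
def subStab (W : Submodule F (VV m F)) : Subgroup (Spg m F) where
  carrier := {g | ∀ z, g.1 *ᵥ z ∈ W ↔ z ∈ W}
  mul_mem' := by
    intro g g' hg hg' z
    rw [mul_act, hg, hg']
  one_mem' := by
    intro z
    rw [one_act]
  inv_mem' := by
    intro g hg z
    rw [← hg, act_inv_act]

lemma mem_subStab {W : Submodule F (VV m F)} {g : Spg m F} : g ∈ subStab W ↔ ∀ z, g.1 *ᵥ z ∈ W ↔ z ∈ W := Iff.rfl

lemma mem_subStab_of {W : Submodule F (VV m F)} {g : Spg m F} (h1 : ∀ z ∈ W, g.1 *ᵥ z ∈ W)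
    (h2 : ∀ z ∈ W, (g⁻¹).1 *ᵥ z ∈ W) : g ∈ subStab W := by
  intro z
  constructor
  · intro h
    have := h2 _ h
    rwa [inv_act_act] at this
  · exact h1 z

section card

variable [Fintype F]

/-- The size of the orthogonal complement. -/
theorem card_orth (M : Submodule F (VV m F)) :
    Nat.card M * Nat.card {z : VV m F // ∀ y ∈ M, ⟪z, y⟫ = 0} = Fintype.card F ^ (2 * m) := by
  have hB := sympBilin_nondegenerate (m := m) (F := F)
  have hf := LinearMap.BilinForm.finrank_orthogonal hB M
  have hd : Module.finrank F (Fin m ⊕ Fin m → F) = 2 * m := by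
    rw [Module.finrank_fintype_fun_eq_card, Fintype.card_sum, Fintype.card_fin, two_mul]
  have h1 := Module.natCard_eq_pow_finrank (K := F) (V := M)
  have h2 := Module.natCard_eq_pow_finrank (K := F) (V := (sympBilin m F).orthogonal M)
  rw [Nat.card_eq_fintype_card (α := F)] at h1 h2
  have h3 : Nat.card {z : VV m F // ∀ y ∈ M, ⟪z, y⟫ = 0} = Nat.card ((sympBilin m F).orthogonal M) := by
    apply Nat.card_congr
    refine Equiv.subtypeEquivRight (fun z => ?_)
    constructor
    · intro hz y hy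
      have := hz y hy
      change sympBilin m F y z = 0
      rw [sympBilin_apply, fm_comm0 this]
    · intro hz y hy
      have : sympBilin m F y z = 0 := hz y hy
      rw [sympBilin_apply] at this
      exact fm_comm0 this
  rw [h3, h1, h2, ← pow_add, hf, Nat.add_sub_of_le (Submodule.finrank_le M), hd]

/-- A totally isotropic subspace has at most `q ^ m` elements. -/
lemma card_ti_sq (W : Submodule F (VV m F)) (hW : ∀ a ∈ W, ∀ b ∈ W, ⟪a, b⟫ = 0) :
    Nat.card W * Nat.card W ≤ Fintype.card F ^ (2 * m) := by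
  rw [← card_orth W]
  apply Nat.mul_le_mul_left
  exact Nat.card_le_card_of_injective (fun a : W => (⟨a.1, fun y hy => hW a.1 a.2 y hy⟩ :
    {z : VV m F // ∀ y ∈ W, ⟪z, y⟫ = 0})) (fun a b h => Subtype.ext (congrArg (fun t : {z : VV m F // ∀ y ∈ W, ⟪z, y⟫ = 0} => t.1) h))

section main

/-- The coset of the identity in the quotient. -/
lemma smul_mk_one {H : Subgroup (Spg m F)} (g : Spg m F) :
    g • ((QuotientGroup.mk 1 : Spg m F ⧸ H)) = QuotientGroup.mk 1 ↔ g ∈ H := by
  have e : g • ((QuotientGroup.mk 1 : Spg m F ⧸ H)) = QuotientGroup.mk g := by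
    have := MulAction.Quotient.smul_mk H g 1
    rw [smul_eq_mul, mul_one] at this
    exact this
  rw [e, QuotientGroup.eq, mul_one, inv_mem_iff]

/-- The bound in the Lagrangian case for `m = 2`. -/
lemma ti_bound_two (p : ℕ) [Fact p.Prime] [CharP F p] {W : Submodule F (VV m F)} (hq : 3 ≤ Fintype.card F) (hm : m = 2)
    (hW : ∀ a ∈ W, ∀ b ∈ W, ⟪a, b⟫ = 0) {v w y₁ : VV m F} (hvw : ⟪v, w⟫ = 1) (hwW : w ∈ W) (hy₁W : y₁ ∈ W)
    (hy₁E : y₁ ∈ Ee v w) (hy₁0 : y₁ ≠ 0)
    (hX : (Fintype.card F - 1) * (subStab W).index + Fintype.card F ≤ Fintype.card F ^ (2 * m)) : False := by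
  classical
  obtain ⟨l, hl⟩ := exists_functional (F := F) (p := p)
  set q := Fintype.card F with hqdef
  set H := subStab W with hH
  let x' : Spg m F ⧸ H := QuotientGroup.mk 1
  have hsm : ∀ g : Spg m F, g • x' = x' ↔ g ∈ H := smul_mk_one
  have hcardX : Nat.card (Spg m F ⧸ H) = H.index := rfl
  have hw0 : w ≠ 0 := ne_zero_of_hyp' hvw
  have he : Nat.card (Ee v w) = q ^ 2 := by
    rw [card_Ee hvw (by omega), hm]
  have hqq : q ^ (2 * m) = q ^ 2 * q ^ 2 := by
    rw [hm]
    ring
  -- the size of the orthogonal complement of `W`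
  have hWcard : q ^ 2 ≤ Nat.card W := by
    have hinj : Function.Injective (fun p : F × F => (⟨p.1 • w + p.2 • y₁, W.add_mem (W.smul_mem _ hwW) (W.smul_mem _ hy₁W)⟩ : W)) := by
      rintro ⟨a, b⟩ ⟨a', b'⟩ h
      have h1 : a • w + b • y₁ = a' • w + b' • y₁ := congrArg (fun t : W => t.1) h
      have h2 : ⟪a • w + b • y₁, v⟫ = ⟪a' • w + b' • y₁, v⟫ := by rw [h1]
      simp only [fm_add_left, fm_smul_left, fm_hyp hvw, hy₁E.1, mul_zero, add_zero, mul_neg, mul_one, neg_inj] at h2
      subst h2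
      have h3 := add_left_cancel h1
      have h4 : b = b' := smul_left_injective F hy₁0 h3
      subst h4
      rfl
    have := Nat.card_le_card_of_injective _ hinj
    rw [Nat.card_prod, Nat.card_eq_fintype_card (α := F), ← sq] at this
    exact this
  have hperp : Nat.card {z : VV m F // ∀ y ∈ W, ⟪z, y⟫ = 0} ≤ q ^ 2 := by
    have h1 := card_orth W
    have h2 : q ^ 2 * Nat.card {z : VV m F // ∀ y ∈ W, ⟪z, y⟫ = 0} ≤ q ^ 2 * q ^ 2 := by
      rw [← hqq, ← h1]
      exact Nat.mul_le_mul_right _ hWcard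
    exact Nat.le_of_mul_le_mul_left h2 (by positivity)
  -- `Om x'` is in the orthogonal complement
  have hOm : ∀ u ∈ (Om x' : Set (VV m F)), ∀ z ∈ W, ⟪u, z⟫ = 0 := by
    intro u hu z hz
    by_contra hne
    have hne' : ⟪z, u⟫ ≠ 0 := by
      rw [fm_anti]
      exact neg_ne_zero.2 hne
    have h1 := (hsm _).1 (hu.2 (⟪z, u⟫)⁻¹)
    have h2 := (h1 z).2 hz
    rw [tS_act, inv_mul_cancel₀ hne', one_smul] at h2
    have h3 := W.sub_mem h2 hz
    rw [add_sub_cancel_left] at h3
    exact hne (hW u h3 z hz)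
  have hOmcard : Nat.card (Om x' : Set (VV m F)) ≤ q ^ 2 - 1 := by
    have hinj : Function.Injective (fun u : (Om x' : Set (VV m F)) =>
        (⟨⟨u.1, hOm u.1 u.2⟩, fun h => u.2.1 (congrArg (fun t : {z : VV m F // ∀ y ∈ W, ⟪z, y⟫ = 0} => t.1) h)⟩ :
          {z : {z : VV m F // ∀ y ∈ W, ⟪z, y⟫ = 0} // z ≠ ⟨0, fun y _ => fm_zero_left y⟩})) := by
      intro a b h
      exact Subtype.ext (congrArg (fun t : {z : {z : VV m F // ∀ y ∈ W, ⟪z, y⟫ = 0} // z ≠ ⟨0, fun y _ => fm_zero_left y⟩} => t.1.1) h)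
    have h1 := Nat.card_le_card_of_injective _ hinj
    have h2 : Nat.card {z : {z : VV m F // ∀ y ∈ W, ⟪z, y⟫ = 0} // z ≠ ⟨0, fun y _ => fm_zero_left y⟩} =
        Nat.card {z : VV m F // ∀ y ∈ W, ⟪z, y⟫ = 0} - 1 := by
      rw [Nat.card_eq_fintype_card, Fintype.card_subtype_compl, Fintype.card_subtype_eq, Nat.card_eq_fintype_card]
    omega
  -- the fixed points of the transvections in `w`
  let N₀ : AddSubgroup (VV m F) := W.toAddSubgroup ⊓ (Ee v w).toAddSubgroup
  have hN₀E : ∀ y ∈ N₀, y ∈ Ee v w := fun y hy => hy.2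
  have hy₁N : y₁ ∈ N₀ := ⟨hy₁W, hy₁E⟩
  have hcov := cover_one hvw N₀ hN₀E hy₁N hy₁0
  rw [he] at hcov
  have hN₀card : Nat.card N₀ ≤ q := by
    have h1 := card_perpE hl hvw N₀ hN₀E
    have h2 : Nat.card N₀ ≤ Nat.card (perpE l v w N₀) := by
      apply Nat.card_le_card_of_injective (fun z : N₀ => (⟨z.1, z.2.2, fun y hy => by
        rw [hW z.1 z.2.1 y hy.1, map_zero]⟩ : perpE l v w N₀))
      intro a b h
      exact Subtype.ext (congrArg (fun t : perpE l v w N₀ => t.1) h)
    rw [he] at h1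
    have h3 : Nat.card N₀ * Nat.card N₀ ≤ q * q := by
      rw [← sq q, ← h1]
      exact Nat.mul_le_mul_left _ h2
    by_contra hlt
    exact absurd h3 (not_le.2 (Nat.mul_self_lt_mul_self (not_le.1 hlt)))
  have hcov2 : q ^ 2 - 1 ≤ Nat.card (Aconj v w (N₀ : Set (VV m F))) * (q - 1) := by
    refine hcov.trans (Nat.mul_le_mul_left _ ?_)
    omega
  -- the fixed points
  have htH : ∀ c : F, tS w c ∈ H := by
    intro c
    have key : ∀ (c : F), ∀ z ∈ W, (tS w c).1 *ᵥ z = z := by
      intro c z hz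
      rw [tS_act, hW z hz w hwW]
      simp
    apply mem_subStab_of
    · intro z hz
      rw [key c z hz]
      exact hz
    · intro z hz
      rw [← tS_neg, key _ z hz]
      exact hz
  have hf : Nat.card (Aconj v w (N₀ : Set (VV m F))) ≤ Nat.card {z : Spg m F ⧸ H | ∀ c, tS w c • z = z} := by
    have hA : ∀ T : Aconj v w (N₀ : Set (VV m F)), ∃ g : Spg m F, g.1 *ᵥ v = v ∧ g.1 *ᵥ w = w ∧
        T.1 = (fun y => g.1 *ᵥ y) '' (N₀ : Set (VV m F)) := fun T => T.2
    choose gf hg1 hg2 hgT using hA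
    have hfixed : ∀ T, ∀ c, tS w c • (gf T • x') = gf T • x' := by
      intro T c
      have e := tS_conj (gf T) w c
      rw [hg2] at e
      rw [← e, mul_smul, mul_smul, inv_smul_smul, (hsm _).2 (htH c)]
    apply Nat.card_le_card_of_injective (fun T => (⟨gf T • x', hfixed T⟩ : {z : Spg m F ⧸ H | ∀ c, tS w c • z = z}))
    intro T T' h
    have h1 : gf T • x' = gf T' • x' := congrArg (fun t : {z : Spg m F ⧸ H | ∀ c, tS w c • z = z} => t.1) h
    have key : ∀ (g g' : Spg m F), g.1 *ᵥ v = v → g.1 *ᵥ w = w → g'.1 *ᵥ v = v → g'.1 *ᵥ w = w → g • x' = g' • x' →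
        (fun y => g'.1 *ᵥ y) '' (N₀ : Set (VV m F)) ⊆ (fun y => g.1 *ᵥ y) '' (N₀ : Set (VV m F)) := by
      rintro g g' a1 a2 a3 a4 he b ⟨z, hz, rfl⟩
      have h2 : (g⁻¹ * g') • x' = x' := by
        rw [mul_smul, ← he, inv_smul_smul]
      have h3 := (hsm _).1 h2
      refine ⟨(g⁻¹ * g').1 *ᵥ z, ⟨(h3 z).2 hz.1, ?_⟩, ?_⟩
      · have hE : (g⁻¹ * g').1 *ᵥ v = (1 : F) • v := by
          rw [mul_act, a3, one_smul]
          have := inv_act_act g v
          rwa [a1] at this
        have hE2 : (g⁻¹ * g').1 *ᵥ w = (1 : F)⁻¹ • w := by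
          rw [mul_act, a4, inv_one, one_smul]
          have := inv_act_act g w
          rwa [a2] at this
        exact levi_E one_ne_zero hE hE2 hz.2
      · simp only
        rw [mul_act, act_inv_act]
    apply Subtype.ext
    rw [hgT T, hgT T']
    exact Set.Subset.antisymm (key _ _ (hg1 T') (hg2 T') (hg1 T) (hg2 T) h1.symm) (key _ _ (hg1 T) (hg2 T) (hg1 T') (hg2 T') h1)
  have hdc := double_count x' hw0
  rw [hcardX, hqq] at hdc
  have e4 : q ^ 2 * q ^ 2 = q ^ 4 := by ring
  rw [e4] at hdc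
  rw [hqq, e4] at hX
  exact num7 hq hdc hOmcard hf hcov2 hX

/-- **The stabiliser of a non-zero totally isotropic subspace has large index.** -/
theorem ti_bound (p : ℕ) [Fact p.Prime] [CharP F p] {W : Submodule F (VV m F)} (hq : 3 ≤ Fintype.card F) (hm : 2 ≤ m)
    (hW : ∀ a ∈ W, ∀ b ∈ W, ⟪a, b⟫ = 0) {w : VV m F} (hwW : w ∈ W) (hw0 : w ≠ 0)
    (hX : (Fintype.card F - 1) * (subStab W).index + Fintype.card F ≤ Fintype.card F ^ (2 * m)) : False := by
  classical
  obtain ⟨l, hl⟩ := exists_functional (F := F) (p := p)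
  set q := Fintype.card F with hqdef
  obtain ⟨v', hv'⟩ := exists_hyp hw0
  have hvw : ⟪-v', w⟫ = 1 := by
    rw [fm_neg_left, fm_anti w v', hv', neg_neg]
  set v := -v' with hv
  have hwv := fm_hyp hvw
  set H := subStab W with hH
  by_cases hline : ∀ z ∈ W, ∃ κ : F, z = κ • w
  · have hle : H ≤ Double.lineStab w := by
      intro g hg
      have h1 : g.1 *ᵥ w ∈ W := (hg w).2 hwW
      obtain ⟨κ, hκ⟩ := hline _ h1
      refine ⟨κ, ?_, hκ⟩
      rintro rfl
      rw [zero_smul] at hκ
      apply hw0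
      have := inv_act_act g w
      rw [hκ] at this
      rw [← this]
      exact mulVec_zero _
    have h2 : (q - 1) * (Double.lineStab w).index = q ^ (2 * m) - 1 := Double.index_lineStab hw0
    have h3 : (Double.lineStab w).index ≤ H.index :=
      Nat.le_of_dvd (Nat.pos_of_ne_zero Subgroup.index_ne_zero_of_finite) (Subgroup.index_dvd_of_le hle)
    have h4 : (q - 1) * (Double.lineStab w).index ≤ (q - 1) * H.index := Nat.mul_le_mul_left _ h3
    have h5 : 0 < q ^ (2 * m) := by positivity
    omega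
  · push Not at hline
    obtain ⟨w', hw', hind⟩ := hline
    set y₁ := w' + ⟪w', v⟫ • w with hy₁
    have hy₁W : y₁ ∈ W := W.add_mem hw' (W.smul_mem _ hwW)
    have hy₁E : y₁ ∈ Ee v w := by
      constructor
      · rw [hy₁, fm_add_left, fm_smul_left, hwv]
        ring
      · rw [hy₁, fm_add_left, fm_smul_left, fm_self, hW w' hw' w hwW]
        ring
    have hy₁0 : y₁ ≠ 0 := by
      intro h
      apply hind (-⟪w', v⟫)
      rw [neg_smul]
      exact eq_neg_of_add_eq_zero_left h
    by_cases hm2 : m = 2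
    · exact ti_bound_two p hq hm2 hW hvw hwW hy₁W hy₁E hy₁0 hX
    · have hm3 : 3 ≤ m := by omega
      let x' : Spg m F ⧸ H := QuotientGroup.mk 1
      have hsm : ∀ g : Spg m F, g • x' = x' ↔ g ∈ H := smul_mk_one
      have hcardX : Nat.card (Spg m F ⧸ H) = H.index := rfl
      have hE1 : Nat.card (Ee v w) = q ^ (2 * m - 2) := card_Ee hvw (by omega)
      have hE2 : q ^ 2 * Nat.card (Ee v w) = q ^ (2 * m) := by
        rw [mul_comm]
        exact card_Ee_mul hvw
      have hE3 : q ^ 2 ≤ Nat.card (Ee v w) := by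
        rw [hE1]
        exact Nat.pow_le_pow_right (by omega) (by omega)
      have hE4 : q ^ 4 ≤ Nat.card (Ee v w) := by
        rw [hE1]
        exact Nat.pow_le_pow_right (by omega) (by omega)
      -- the invariants
      have hR : Rs v x' = ⊥ := by
        rw [eq_bot_iff]
        intro a ha
        have h1 := (hsm _).1 ha
        have h2 := (h1 w).2 hwW
        rw [tS_act, hwv] at h2
        have h3 := W.sub_mem h2 hwW
        rw [add_sub_cancel_left] at h3
        have h4 := hW w hwW _ h3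
        rw [fm_smul_right, hwv] at h4
        have h5 : a = 0 := by linear_combination h4
        exact (AddSubgroup.mem_bot).2 h5
      have hN : Ns v w x' = W.toAddSubgroup ⊓ (Ee v w).toAddSubgroup := by
        apply le_antisymm
        · rintro y ⟨hyE, a, ha⟩
          have h1 := (hsm _).1 ha
          have h2 := (h1 w).2 hwW
          rw [Sq_act (fm_comm0 hyE.1), hwv, fm_comm0 hyE.2] at h2
          have h3 := W.sub_mem h2 hwW
          have e1 : w + (-1 : F) • y + (0 + a * -1) • v - w = (-1 : F) • (y + a • v) := by module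
          rw [e1] at h3
          have h4 := W.smul_mem (-1 : F) h3
          rw [smul_smul] at h4
          have e2 : (-1 : F) * -1 = 1 := by ring
          rw [e2, one_smul] at h4
          have h5 := hW w hwW _ h4
          rw [fm_add_right, fm_smul_right, hwv, fm_comm0 hyE.2] at h5
          have h6 : a = 0 := by
            have : 0 + a * -1 = -a := by ring
            rw [this] at h5
            exact neg_eq_zero.1 h5
          subst h6
          rw [zero_smul, add_zero] at h4
          exact ⟨h4, hyE⟩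
        · rintro y ⟨hyW, hyE⟩
          have hv0 : ⟪v, y⟫ = 0 := fm_comm0 hyE.1
          have key : ∀ y ∈ W, ⟪v, y⟫ = 0 → ∀ z ∈ W, (Sq v y 0).1 *ᵥ z ∈ W := by
            intro y hyW hv0 z hz
            rw [Sq_act hv0, hW z hz y hyW]
            simp only [mul_zero, zero_mul, add_zero, zero_smul]
            exact W.add_mem hz (W.smul_mem _ hyW)
          refine ⟨hyE, 0, (hsm _).2 (mem_subStab_of (key y hyW hv0) ?_)⟩
          intro z hz
          rw [Sq_inv hv0, neg_zero]
          exact key (-y) (W.neg_mem hyW) (by rw [fm_neg_right, hv0, neg_zero]) z hz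
      have hcount := count_orbit hl hvw x'
      set N := Ns v w x' with hNdef
      set A := perpE l v w N with hAdef
      have hNA : ∀ y ∈ N, y ∈ A := by
        intro y hy
        rw [hN] at hy
        refine ⟨hy.2, fun z hz => ?_⟩
        rw [hN] at hz
        rw [hW y hy.1 z hz.1, map_zero]
      have hNE : ∀ y ∈ N, y ∈ Ee v w := fun y hy => hy.1
      have hAE : ∀ y ∈ A, y ∈ Ee v w := fun y hy => hy.1
      have hy₁N : y₁ ∈ N := by
        rw [hN]
        exact ⟨hy₁W, hy₁E⟩
      have hy₁A := hNA _ hy₁N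
      have hNt := card_perpE hl hvw N hNE
      rw [← hAdef] at hNt
      have hNle : Nat.card N ≤ Nat.card A := by
        apply Nat.card_le_card_of_injective (fun y : N => (⟨y.1, hNA y.1 y.2⟩ : A))
        intro a b h
        exact Subtype.ext (congrArg (fun t : A => t.1) h)
      have hqt : q < Nat.card A := by
        by_contra hcon
        have h1 : Nat.card A ≤ q := not_lt.1 hcon
        have h2 : Nat.card N * Nat.card A ≤ Nat.card A * Nat.card A := Nat.mul_le_mul_right _ hNle
        have h3 : Nat.card A * Nat.card A ≤ q * q := Nat.mul_le_mul h1 h1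
        have h4 : q * q < q ^ 4 := by
          have h5 : 1 < q * q := by nlinarith
          have h6 : q ^ 4 = (q * q) * (q * q) := by ring
          rw [h6]
          nlinarith
        omega
      have hind' : ∃ u' ∈ A, ∀ κ : F, u' ≠ κ • y₁ := by
        by_contra hcon
        push Not at hcon
        have hc : ∀ z : A, ∃ κ : F, z.1 = κ • y₁ := fun z => hcon z.1 z.2
        choose κf hκf using hc
        have h1 : Nat.card A ≤ Nat.card F := by
          apply Nat.card_le_card_of_injective κf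
          intro a b h
          apply Subtype.ext
          rw [hκf a, hκf b, h]
        rw [Nat.card_eq_fintype_card (α := F)] at h1
        omega
      obtain ⟨u', hu', hind'⟩ := hind'
      have hAne : ∃ y ∈ Ee v w, y ∉ A := by
        obtain ⟨y₂, hy₂, hyy⟩ := exists_Ee_hyp hvw hy₁E hy₁0
        obtain ⟨c, hc⟩ := exists_l_ne hl
        refine ⟨c • y₂, (Ee v w).smul_mem c hy₂, fun h => hc ?_⟩
        have := h.2 _ hy₁N
        rw [fm_smul_left, fm_hyp hyy, mul_neg, mul_one, map_neg, neg_eq_zero] at this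
        exact this
      have hcov := cover_two hq hvw A hAE hAne hy₁A hu' hy₁0 hind'
      have hRcard : Nat.card (Rs v x') = 1 := by
        rw [hR]
        exact Nat.card_unique
      have hτ := card_perpF hl (Rs v x')
      rw [hRcard, one_mul] at hτ
      rw [hτ] at hcount
      set sR := Nat.card (Rconj (Rs v x' : Set F)) with hsR
      set sA := Nat.card (Aconj v w (A : Set (VV m F))) with hsA
      set t := Nat.card A with ht
      have hsR1 : 1 ≤ sR := by
        haveI : Nonempty (Rconj (Rs v x' : Set F)) := ⟨⟨_, self_mem_Rconj _⟩⟩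
        exact Nat.card_pos
      have hX' : (q - 1) * Nat.card (Spg m F ⧸ H) + q ≤ q ^ 2 * Nat.card (Ee v w) := by
        rw [hcardX, hE2]
        exact hX
      refine num2 hq hE3 hX' (a := sA * t) (b := q * sR) ?_ (num6 hq hsR1) ?_
      · exact hcov.trans (Nat.mul_le_mul_left _ (Nat.sub_le _ _))
      · calc sA * t * (q * sR) = sR * sA * (q * t) := by ring
          _ ≤ _ := hcount

end main

end card

end Cfsg.Agent.Lib.MinSp.TI
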